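import Cfsg.Agent.TwE6Two.Upper
import Cfsg.Agent.CentralExt.Basic
import Cfsg.Agent.CentralExt.TwCells.E6Cover
import Cfsg.Agent.CentralExt.TwCells.E6Hom
import Cfsg.Agent.TwE6Five.Main
import Mathlib.GroupTheory.SpecificGroups.Cyclic

/-!
# The Schur multiplier of 2E6(2) (owner: helper57)
-/

set_option autoImplicit false
set_option maxRecDepth 100000

namespace Cfsg.Agent.TwE6Two

open Cfsg.Lie Cfsg.Agent.GFour25 Cfsg.Agent.CentralExt

attribute [local instance] instCharTwoF4

theorem four_pow_four : ∀ v : Multiplicative (ZMod 2 × ZMod 2), v ^ 4 = 1 := by decide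

/-- The multiplier over the model field. -/
theorem hasSchurMultiplier_G2 :
    Cfsg.HasSchurMultiplier G2 (Multiplicative (ZMod 3 × ZMod 2 × ZMod 2)) := by
  haveI : Fact (Nat.Prime 2) := ⟨Nat.prime_two⟩
  haveI : Fact (Nat.Prime 3) := ⟨Nat.prime_three⟩
  -- the order divides twelve
  have hdvd : Nat.card (schurMult G2) ∣ 12 := by
    obtain ⟨W, iW, fW, θ, hθ, ⟨e⟩⟩ := exists_schurCover G2
    have hM : Nat.card (schurMult G2) ≠ 0 := Nat.card_pos.ne'
    rw [← Nat.factorization_le_iff_dvd hM (by norm_num)]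
    intro r
    by_cases hr : r.Prime
    swap
    · simp [Nat.factorization_eq_zero_of_not_prime _ hr]
    haveI : Fact r.Prime := ⟨hr⟩
    obtain ⟨Δ, iΔ, fΔ, τ, hτ, hp, hcard⟩ := exists_pgroup_quotient hθ r
    rw [Nat.card_congr e.toEquiv] at hcard
    by_cases h2 : r = 2
    · subst h2
      have h := card_two_le hτ hp
      rw [hcard] at h
      have h' := (Nat.pow_le_pow_iff_right one_lt_two).1 (show 2 ^ _ ≤ 2 ^ 2 from h)
      refine h'.trans (le_of_eq ?_)
      rw [show (12 : ℕ) = 2 ^ 2 * 3 from rfl, Nat.factorization_mul (by norm_num) (by norm_num),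
        Finsupp.add_apply, Nat.factorization_pow, Nat.Prime.factorization Nat.prime_three,
        Nat.Prime.factorization Nat.prime_two]
      simp
    · have h := TwCells.card_ker_dvd_E6 hq2 hK4 (p := 2) (r := r) (Ne.symm h2) hτ hp
      rw [hcard] at h
      have h12 : r ^ (Nat.card (schurMult G2)).factorization r ∣ 12 :=
        h.trans (by decide)
      exact (hr.pow_dvd_iff_le_factorization (by norm_num)).1 h12
  have h3 : 3 ∣ Nat.card (schurMult G2) := TwCells.three_dvd_schurMult_E6 hq2 hK4 (by norm_num)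
  -- the four-group quotient
  obtain ⟨W, iW, fW, σ, hσ, ⟨eσ⟩⟩ := exists_stem_four
  obtain ⟨π₀, hπ₀⟩ := exists_surjective_ker hσ
  let π : schurMult G2 →* Multiplicative (ZMod 2 × ZMod 2) := eσ.toMonoidHom.comp π₀
  have hπ : Function.Surjective π := eσ.surjective.comp hπ₀
  have hV : Nat.card (Multiplicative (ZMod 2 × ZMod 2)) = 4 := by
    rw [Nat.card_congr Multiplicative.toAdd, Nat.card_prod, Nat.card_zmod]
  have h4 : 4 ∣ Nat.card (schurMult G2) := hV ▸ Subgroup.card_dvd_of_surjective π hπ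
  have hM : Nat.card (schurMult G2) = 12 :=
    Nat.dvd_antisymm hdvd (Nat.Coprime.mul_dvd_of_dvd_of_dvd (by norm_num : Nat.Coprime 3 4) h3 h4)
  have hK : Nat.card π.ker = 3 := by
    have h := Subgroup.card_eq_card_quotient_mul_card_subgroup π.ker
    rw [Nat.card_congr (QuotientGroup.quotientKerEquivOfSurjective π hπ).toEquiv, hM, hV] at h
    omega
  let φ : schurMult G2 →* ↥π.ker :=
    (powMonoidHom 4).codRestrict _ fun x => by
      rw [MonoidHom.mem_ker, powMonoidHom_apply, map_pow, four_pow_four]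
  let Ψ : schurMult G2 →* ↥π.ker × Multiplicative (ZMod 2 × ZMod 2) := φ.prod π
  have hΨ : Function.Injective Ψ := by
    rw [injective_iff_map_eq_one]
    intro x hx
    have h1 : x ^ 4 = 1 := congrArg Subtype.val (Prod.ext_iff.1 hx).1
    have h2 : π x = 1 := (Prod.ext_iff.1 hx).2
    have h3' : x ^ 3 = 1 := by
      have := congrArg Subtype.val (pow_card_eq_one' (x := (⟨x, h2⟩ : ↥π.ker)))
      rw [hK] at this
      exact this
    rw [pow_succ, h3', one_mul] at h1
    exact h1
  have hb : Function.Bijective Ψ := by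
    refine ⟨hΨ, ?_⟩
    have : Nat.card (↥π.ker × Multiplicative (ZMod 2 × ZMod 2)) ≤ Nat.card (schurMult G2) := by
      rw [Nat.card_prod, hK, hV, hM]
    exact (hΨ.bijective_of_nat_card_le this).2
  haveI : IsCyclic ↥π.ker := isCyclic_of_prime_card hK
  have e3 : ↥π.ker ≃* Multiplicative (ZMod 3) :=
    mulEquivOfCyclicCardEq (by rw [hK, Nat.card_congr Multiplicative.toAdd, Nat.card_zmod])
  refine hasSchurMultiplier_iff.2 ⟨?_⟩
  exact (MulEquiv.prodMultiplicative (ZMod 3) (ZMod 2 × ZMod 2)).trans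
    (((MulEquiv.prodCongr e3.symm (MulEquiv.refl _))).trans (MulEquiv.ofBijective Ψ hb).symm)

end Cfsg.Agent.TwE6Two
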