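import Cfsg.Agent.TwE6Two.Checks

/-! Kernel checks for the multiplier of 2E6(2), split to keep each one small (owner: helper57). -/

set_option autoImplicit false
set_option maxRecDepth 100000
set_option maxHeartbeats 0
set_option Elab.async false

namespace Cfsg.Agent.TwE6Two

theorem step38_0 : stepOK pc38 0 = true := by decide +kernel

theorem step38_1 : stepOK pc38 1 = true := by decide +kernel

theorem step38_2 : stepOK pc38 2 = true := by decide +kernel

theorem step38_3 : stepOK pc38 3 = true := by decide +kernel

theorem step38_4 : stepOK pc38 4 = true := by decide +kernel

theorem step38_5 : stepOK pc38 5 = true := by decide +kernel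

theorem step38_6 : stepOK pc38 6 = true := by decide +kernel

theorem step38_7 : stepOK pc38 7 = true := by decide +kernel

theorem step38_8 : stepOK pc38 8 = true := by decide +kernel

theorem step38_9 : stepOK pc38 9 = true := by decide +kernel

theorem step38_10 : stepOK pc38 10 = true := by decide +kernel

theorem step38_11 : stepOK pc38 11 = true := by decide +kernel

theorem step38_12 : stepOK pc38 12 = true := by decide +kernel

theorem step38_13 : stepOK pc38 13 = true := by decide +kernel

theorem step38_14 : stepOK pc38 14 = true := by decide +kernel

theorem step38_15 : stepOK pc38 15 = true := by decide +kernel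

theorem step38_16 : stepOK pc38 16 = true := by decide +kernel

theorem step38_17 : stepOK pc38 17 = true := by decide +kernel

theorem step38_18 : stepOK pc38 18 = true := by decide +kernel

theorem step38_19 : stepOK pc38 19 = true := by decide +kernel

end Cfsg.Agent.TwE6Two
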