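import Cfsg.Agent.TwE6Two.Checks

/-! Kernel checks for the multiplier of 2E6(2), split to keep each one small (owner: helper57). -/

set_option autoImplicit false
set_option maxRecDepth 100000
set_option maxHeartbeats 0
set_option Elab.async false

namespace Cfsg.Agent.TwE6Two

theorem step38_20 : stepOK pc38 20 = true := by decide +kernel

theorem step38_21 : stepOK pc38 21 = true := by decide +kernel

theorem step38_22 : stepOK pc38 22 = true := by decide +kernel

theorem step38_23 : stepOK pc38 23 = true := by decide +kernel

theorem step38_24 : stepOK pc38 24 = true := by decide +kernel

theorem step38_25 : stepOK pc38 25 = true := by decide +kernel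

theorem step38_26 : stepOK pc38 26 = true := by decide +kernel

end Cfsg.Agent.TwE6Two
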