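import Cfsg.Agent.TwE6Two.Checks

/-! Kernel checks for the multiplier of 2E6(2), split to keep each one small (owner: helper57). -/

set_option autoImplicit false
set_option maxRecDepth 100000
set_option maxHeartbeats 0
set_option Elab.async false

namespace Cfsg.Agent.TwE6Two

theorem step38_27 : stepOK pc38 27 = true := by decide +kernel

theorem step38_28 : stepOK pc38 28 = true := by decide +kernel

theorem step38_29 : stepOK pc38 29 = true := by decide +kernel

theorem step38_30 : stepOK pc38 30 = true := by decide +kernel

end Cfsg.Agent.TwE6Two
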