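import Cfsg.Agent.TwE6Two.Checks

/-! Kernel checks for the multiplier of 2E6(2), split to keep each one small (owner: helper57). -/

set_option autoImplicit false
set_option maxRecDepth 100000
set_option maxHeartbeats 0
set_option Elab.async false

namespace Cfsg.Agent.TwE6Two

theorem step38_31 : stepOK pc38 31 = true := by decide +kernel

theorem step38_32 : stepOK pc38 32 = true := by decide +kernel

theorem step38_33 : stepOK pc38 33 = true := by decide +kernel

theorem step38_34 : stepOK pc38 34 = true := by decide +kernel

end Cfsg.Agent.TwE6Two
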