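import Mathlib.Tactic.IntervalCases
import Cfsg.Agent.TwE6Two.Check38Part1
import Cfsg.Agent.TwE6Two.Check38Part2
import Cfsg.Agent.TwE6Two.Check38Part3
import Cfsg.Agent.TwE6Two.Check38Part4
import Cfsg.Agent.TwE6Two.Check38Part5

/-! Kernel checks for the multiplier of 2E6(2), split to keep each one small (owner: helper57). -/

set_option autoImplicit false
set_option maxRecDepth 100000
set_option maxHeartbeats 0
set_option Elab.async false

namespace Cfsg.Agent.TwE6Two

theorem shape38_true : shape38 = true := by decide +kernel

theorem head38_true : (pc38.wf && Nat.beq pc38.p 2 && Nat.beq pc38.n 38) = true := by decide +kernel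

theorem ok38_true : ok38 = true := by
  have h := head38_true
  have hn : pc38.n = 38 := Nat.eq_of_beq_eq_true (Bool.and_eq_true_iff.1 h).2
  have hc : consistent pc38 = true := by
    rw [consistent, hn, List.all_eq_true]
    intro k hk
    rw [List.mem_range] at hk
    interval_cases k
    · exact step38_0
    · exact step38_1
    · exact step38_2
    · exact step38_3
    · exact step38_4
    · exact step38_5
    · exact step38_6
    · exact step38_7
    · exact step38_8
    · exact step38_9
    · exact step38_10
    · exact step38_11
    · exact step38_12
    · exact step38_13
    · exact step38_14
    · exact step38_15
    · exact step38_16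
    · exact step38_17
    · exact step38_18
    · exact step38_19
    · exact step38_20
    · exact step38_21
    · exact step38_22
    · exact step38_23
    · exact step38_24
    · exact step38_25
    · exact step38_26
    · exact step38_27
    · exact step38_28
    · exact step38_29
    · exact step38_30
    · exact step38_31
    · exact step38_32
    · exact step38_33
    · exact step38_34
    · exact step38_35
    · exact step38_36
    · exact step38_37
  simp only [ok38, h, hc, shape38_true, Bool.and_self]

end Cfsg.Agent.TwE6Two
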