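import Cfsg.Agent.TwE6Two.Checks

/-! Kernel checks for the multiplier of 2E6(2), split to keep each one small (owner: helper57). -/

set_option autoImplicit false
set_option maxRecDepth 100000
set_option maxHeartbeats 0
set_option Elab.async false

namespace Cfsg.Agent.TwE6Two

theorem gen_0 : ((List.range 14).all fun j => Nat.blt j 0 || okGenAt j) = true := by decide +kernel

theorem gen_1 : ((List.range 22).all fun j => Nat.blt j 14 || okGenAt j) = true := by decide +kernel

theorem gen_2 : ((List.range 28).all fun j => Nat.blt j 22 || okGenAt j) = true := by decide +kernel

theorem gen_3 : ((List.range 32).all fun j => Nat.blt j 28 || okGenAt j) = true := by decide +kernel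

theorem gen_4 : ((List.range 36).all fun j => Nat.blt j 32 || okGenAt j) = true := by decide +kernel

theorem genHead : (pc36.wf && Nat.beq pc36.p 2 && Nat.beq pc36.n 36) = true := by decide +kernel

theorem okGen_true : okGen = true := by
  have key : ∀ {a b : ℕ}, ((List.range b).all fun j => Nat.blt j a || okGenAt j) = true →
      ∀ j, a ≤ j → j < b → okGenAt j = true := by
    intro a b h j h1 h2
    simp only [List.all_eq_true, List.mem_range, Bool.or_eq_true, Nat.blt_eq] at h
    exact (h j h2).resolve_left (not_lt.2 h1)
  have hall : (List.range 36).all okGenAt = true := by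
    rw [List.all_eq_true]
    intro j hj
    rw [List.mem_range] at hj
    by_cases h0 : j < 14
    · exact key gen_0 j (by omega) h0
    by_cases h1 : j < 22
    · exact key gen_1 j (by omega) h1
    by_cases h2 : j < 28
    · exact key gen_2 j (by omega) h2
    by_cases h3 : j < 32
    · exact key gen_3 j (by omega) h3
    exact key gen_4 j (by omega) hj
  simp only [okGen, genHead, hall, Bool.and_self]

end Cfsg.Agent.TwE6Two
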