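import Cfsg.Agent.SchurCert.Cert
import Mathlib.GroupTheory.Index

/-!
# Groups from consistent polycyclic presentations of exponent two, and homomorphisms out of them
(owner: helper57)
-/

set_option autoImplicit false

namespace Cfsg.Agent.TwE6Two

open Subgroup Cfsg.Agent.SchurCert

universe u v

section Hom

variable {G : Type u} [Group G] {H : Type v} [Group H]

/-- The exact lift given by elements satisfying the relations. -/
def satLift {P : PC} {s : ℕ → G} (h : SatPC P s) : Lift P G where
  s := s
  zp _ := 1
  zp_add _ _ := (one_mul 1).symm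
  zp_comm _ x := by rw [one_mul, mul_one]
  τ _ := 0
  pow_rel j hj := by rw [mul_one]; exact h.1 j hj
  cj_rel j hj i hi := by rw [mul_one]; exact h.2 j hj i hi

/-- A word collected: two words have the same value. -/
def sameNF (P : PC) (V W : List ℕ) : Bool :=
  Cert.below P.n V && Cert.below P.n W && decide ((P.collect V).1 = (P.collect W).1)

theorem evalW_eq_of_sameNF {P : PC} {s : ℕ → G} (hwf : P.wf = true) (h : SatPC P s) {V W : List ℕ}
    (e : sameNF P V W = true) : evalW s V = evalW s W := by
  simp only [sameNF, Bool.and_eq_true, decide_eq_true_eq] at e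
  have hV := (satLift h).collect_sound hwf V (mem_below e.1.1)
  have hW := (satLift h).collect_sound hwf W (mem_below e.1.2)
  have hT : ∀ t, (satLift h).T t = 1 := fun t => rfl
  rw [hT, mul_one] at hV hW
  rw [show evalW s V = evalW (satLift h).s V from rfl, hV, e.2, ← hW]
  rfl

theorem map_initGroup (f : G →* H) (s : ℕ → G) (k : ℕ) :
    (initGroup s k).map f = initGroup (fun i => f (s i)) k := by
  rw [initGroup, initGroup, MonoidHom.map_closure, Set.image_image]

theorem initGroup_congr {s t : ℕ → G} {k : ℕ} (h : ∀ i < k, s i = t i) :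
    initGroup s k = initGroup t k := by
  unfold initGroup
  congr 1
  exact Set.image_congr fun i hi => h i hi

variable [Finite G] [Finite H]

/-- A homomorphism out of a group with a polycyclic presentation. -/
theorem exists_hom_of_sat {P : PC} (hwf : P.wf = true) (hp : P.p = 2) {s : ℕ → G} (hs : SatPC P s)
    (hcard : Nat.card (initGroup s P.n) = 2 ^ P.n) {t : ℕ → H} (ht : SatPC P t) :
    ∃ f : ↥(initGroup s P.n) →* H, ∀ (i : ℕ) (hi : i < P.n), f ⟨s i, mem_initGroup s hi⟩ = t i := by
  let u : ℕ → G × H := fun i => (s i, t i)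
  have e1 : ∀ W, (evalW u W).1 = evalW s W := fun W => map_evalW (MonoidHom.fst G H) u W
  have e2 : ∀ W, (evalW u W).2 = evalW t W := fun W => map_evalW (MonoidHom.snd G H) u W
  have hu : SatPC P u := by
    refine ⟨fun j hj => Prod.ext ?_ ?_, fun j hj i hi => Prod.ext ?_ ?_⟩
    · rw [e1]; exact hs.1 j hj
    · rw [e2]; exact ht.1 j hj
    · rw [Prod.fst_mul, Prod.fst_mul, e1]; exact hs.2 j hj i hi
    · rw [Prod.snd_mul, Prod.snd_mul, e2]; exact ht.2 j hj i hi
  have hle : Nat.card (initGroup u P.n) ≤ 2 ^ P.n := by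
    have := card_initGroup_le hwf hu (by omega) (le_refl P.n)
    rwa [hp] at this
  have hmem : ∀ z : ↥(initGroup u P.n), (z : G × H).1 ∈ initGroup s P.n := fun z => by
    have h := Subgroup.mem_map_of_mem (MonoidHom.fst G H) z.2
    rwa [map_initGroup] at h
  let p₁ : ↥(initGroup u P.n) →* ↥(initGroup s P.n) :=
    ((MonoidHom.fst G H).comp (initGroup u P.n).subtype).codRestrict _ hmem
  have hsur : Function.Surjective p₁ := by
    rintro ⟨x, hx⟩
    have hx' : x ∈ (initGroup u P.n).map (MonoidHom.fst G H) := by rwa [map_initGroup]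
    obtain ⟨z, hz, rfl⟩ := hx'
    exact ⟨⟨z, hz⟩, rfl⟩
  let e := MulEquiv.ofBijective p₁ (hsur.bijective_of_nat_card_le (by rw [hcard]; exact hle))
  refine ⟨((MonoidHom.snd G H).comp (initGroup u P.n).subtype).comp e.symm.toMonoidHom, fun i hi => ?_⟩
  have he : e.symm ⟨s i, mem_initGroup s hi⟩ = ⟨u i, mem_initGroup u hi⟩ :=
    e.symm_apply_eq.2 rfl
  show (MonoidHom.snd G H) ((e.symm ⟨s i, mem_initGroup s hi⟩ : ↥(initGroup u P.n)) : G × H) = t i
  rw [he]
  rfl

end Hom

/-- The data of a cyclic extension of degree two. -/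
structure Cyc (N : Type u) [Group N] where
  /-- The action. -/
  α : N ≃* N
  /-- The square. -/
  c : N
  fix : α c = c
  sq : ∀ x, α (α x) = c * x * c⁻¹

namespace Cyc

variable {N : Type u} [Group N]

/-- The elements of the extension. -/
@[ext]
structure Elt (E : Cyc N) : Type u where
  /-- The part in the subgroup. -/
  n : N
  /-- The parity. -/
  b : Bool

variable (E : Cyc N)

instance : One (Elt E) := ⟨⟨1, false⟩⟩

instance : Mul (Elt E) :=
  ⟨fun x y => ⟨x.n * (bif x.b then E.α y.n else y.n) * (bif x.b && y.b then E.c else 1), xor x.b y.b⟩⟩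

instance : Inv (Elt E) :=
  ⟨fun x => ⟨bif x.b then E.c⁻¹ * (E.α x.n)⁻¹ else x.n⁻¹, x.b⟩⟩

theorem mul_def (x y : Elt E) : x * y =
    ⟨x.n * (bif x.b then E.α y.n else y.n) * (bif x.b && y.b then E.c else 1), xor x.b y.b⟩ := rfl

theorem one_def : (1 : Elt E) = ⟨1, false⟩ := rfl

theorem inv_def (x : Elt E) : x⁻¹ = ⟨bif x.b then E.c⁻¹ * (E.α x.n)⁻¹ else x.n⁻¹, x.b⟩ := rfl

instance : Group (Elt E) :=
  Group.ofLeftAxioms
    (fun x y z => by
      obtain ⟨x, a⟩ := x; obtain ⟨y, b⟩ := y; obtain ⟨z, d⟩ := z
      cases a <;> cases b <;> cases d <;>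
        simp [mul_def, E.sq, E.fix, mul_assoc])
    (fun x => by obtain ⟨x, a⟩ := x; simp [mul_def, one_def])
    (fun x => by
      obtain ⟨x, a⟩ := x
      cases a <;> simp [mul_def, one_def, inv_def, mul_assoc])

/-- The pairs. -/
def equivProd : Elt E ≃ N × Bool where
  toFun x := (x.n, x.b)
  invFun p := ⟨p.1, p.2⟩
  left_inv _ := rfl
  right_inv _ := rfl

instance [Finite N] : Finite (Elt E) := Finite.of_equiv _ (equivProd E).symm

/-- The inclusion. -/
def incl : N →* Elt E where
  toFun x := ⟨x, false⟩
  map_one' := rfl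
  map_mul' x y := by simp [mul_def]

end Cyc

/-- The presentation cut to the first `k` generators. -/
def cut (P : PC) (k : ℕ) : PC := { P with n := k }

theorem cut_wf {P : PC} (hwf : P.wf = true) {k : ℕ} (hk : k ≤ P.n) : (cut P k).wf = true := by
  simp only [PC.wf, List.all_eq_true, List.mem_range] at hwf ⊢
  exact fun j hj => hwf j (lt_of_lt_of_le hj hk)

/-- Consistency of the generator `k` over the earlier ones. -/
def stepOK (P : PC) (k : ℕ) : Bool :=
  let Q := cut P k
  let w : List ℕ → List ℕ := fun W => W.flatMap fun i => P.cjWord k i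
  let c := P.powWord k
  sameNF Q (w c) c &&
    (List.range k).all fun j =>
      sameNF Q (w [j, j]) (w (P.powWord j)) && sameNF Q (w (w [j]) ++ c) (c ++ [j]) &&
        (List.range j).all fun i => sameNF Q (w [j, i]) (w (P.cjWord j i ++ [j]))

/-- The whole consistency check. -/
def consistent (P : PC) : Bool := (List.range P.n).all fun k => stepOK P k

theorem evalW_flatMap {G : Type u} [Monoid G] (s : ℕ → G) (f : ℕ → List ℕ) :
    ∀ W : List ℕ, ((W.flatMap f).map s).prod = (W.map fun i => ((f i).map s).prod).prod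
  | [] => rfl
  | a :: W => by rw [List.flatMap_cons, List.map_append, List.prod_append, List.map_cons,
      List.prod_cons, evalW_flatMap s f W]

/-- A consistent presentation of exponent two presents a group of the full order. -/
theorem exists_model (P : PC) (hwf : P.wf = true) (hp : P.p = 2) (hc : consistent P = true) :
    ∀ k ≤ P.n, ∃ (Γ : Type) (_ : Group Γ) (_ : Finite Γ) (s : ℕ → Γ),
      SatPC (cut P k) s ∧ Nat.card Γ = 2 ^ k ∧ initGroup s k = ⊤
  | 0, _ => by
    refine ⟨Unit, inferInstance, inferInstance, fun _ => (), ⟨fun j hj => ?_, fun j hj => ?_⟩, ?_, ?_⟩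
    · exact absurd hj (Nat.not_lt_zero j)
    · exact absurd hj (Nat.not_lt_zero j)
    · simp
    · exact eq_top_iff.2 fun x _ => one_mem (initGroup (fun _ : ℕ => ()) 0)
  | k + 1, hk => by
    obtain ⟨N, iN, fN, s, hs, hcard, htop⟩ := exists_model P hwf hp hc k (Nat.le_of_succ_le hk)
    simp only [consistent, List.all_eq_true, List.mem_range] at hc
    have hst := hc k hk
    simp only [stepOK, Bool.and_eq_true, List.all_eq_true, List.mem_range] at hst
    obtain ⟨hfixc, hrel⟩ := hst
    have hwfk := cut_wf hwf (Nat.le_of_succ_le hk)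
    set t : ℕ → N := fun i => evalW s (P.cjWord k i) with htdef
    have hw : ∀ W, evalW s (W.flatMap fun i => P.cjWord k i) = evalW t W := fun W =>
      evalW_flatMap s _ W
    have hE : ∀ {V W}, sameNF (cut P k) V W = true → evalW s V = evalW s W := fun h =>
      evalW_eq_of_sameNF hwfk hs h
    have ht : SatPC (cut P k) t := by
      refine ⟨fun j hj => ?_, fun j hj i hi => ?_⟩
      · have h := hE (hrel j hj).1.1
        rw [hw, hw] at h
        show t j ^ P.p = evalW t (P.powWord j)
        rw [hp, pow_two, ← h]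
        simp
      · have h := hE ((hrel j hj).2 i hi)
        rw [hw, hw, evalW_append] at h
        show t j * t i = evalW t (P.cjWord j i) * t j
        simpa using h
    obtain ⟨f, hf⟩ := exists_hom_of_sat hwfk (by exact hp) hs
      (by rw [show (cut P k).n = k from rfl, htop, Subgroup.card_top, hcard]) ht
    let a : N →* N := f.comp ((MonoidHom.id N).codRestrict (initGroup s k) fun x => htop ▸ Subgroup.mem_top x)
    have ha : ∀ i < k, a (s i) = t i := fun i hi => hf i hi
    have hlt : ∀ W : List ℕ, (∀ x ∈ W, x < k) → a (evalW s W) = evalW t W := by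
      intro W hW
      rw [map_evalW]
      unfold evalW
      rw [List.map_congr_left fun x hx => ha x (hW x hx)]
    set c : N := evalW s (P.powWord k) with hcdef
    have hac : a c = c := by
      rw [hcdef, hlt _ (PC.wf_powWord hwf hk), ← hw]
      exact hE hfixc
    have hsq : ∀ x, a (a x) = c * x * c⁻¹ := by
      intro x
      have hx : x ∈ initGroup s k := htop ▸ Subgroup.mem_top x
      refine Subgroup.closure_induction (p := fun x _ => a (a x) = c * x * c⁻¹) ?_ ?_ ?_ ?_ hx
      · rintro _ ⟨j, hj, rfl⟩
        have h := hE (hrel j hj).1.2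
        rw [evalW_append, evalW_append, hw] at h
        rw [ha j hj, htdef]
        simp only
        rw [hlt _ (PC.wf_cjWord hwf hk hj), eq_mul_inv_iff_mul_eq]
        simpa [List.flatMap_cons, List.flatMap_nil] using h
      · simp
      · intro x y _ _ hx hy
        simp [map_mul, hx, hy, mul_assoc]
      · intro x _ hx
        simp [map_inv, hx, mul_assoc]
    have hbij : Function.Bijective a := by
      refine (Finite.injective_iff_bijective).1 fun x y e => ?_
      have := congrArg a e
      rw [hsq, hsq] at this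
      simpa using this
    let E : Cyc N := ⟨MulEquiv.ofBijective a hbij, c, hac, hsq⟩
    let top : Cyc.Elt E := ⟨1, true⟩
    let s' : ℕ → Cyc.Elt E := fun i => if i < k then Cyc.incl E (s i) else top
    have hs'lt : ∀ i < k, s' i = Cyc.incl E (s i) := fun i hi => if_pos hi
    have hs'k : s' k = top := if_neg (lt_irrefl k)
    have hW' : ∀ W : List ℕ, (∀ x ∈ W, x < k) → evalW s' W = Cyc.incl E (evalW s W) := by
      intro W hW
      rw [map_evalW]
      unfold evalW
      rw [List.map_congr_left fun x hx => hs'lt x (hW x hx)]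
    refine ⟨Cyc.Elt E, inferInstance, inferInstance, s', ⟨fun j hj => ?_, fun j hj i hi => ?_⟩, ?_, ?_⟩
    · show s' j ^ P.p = evalW s' (P.powWord j)
      have hj' : j < k + 1 := hj
      have hjn : j < P.n := by omega
      rw [hW' _ fun x hx => lt_of_lt_of_le (PC.wf_powWord hwf hjn x hx) (Nat.lt_succ_iff.1 hj')]
      rcases Nat.lt_or_eq_of_le (Nat.lt_succ_iff.1 hj') with h | h
      · rw [hs'lt j h, ← map_pow]
        exact congrArg _ (hs.1 j h)
      · subst h
        rw [hs'k, hp, pow_two]
        refine Cyc.Elt.ext ?_ rfl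
        show (1 : N) * E.α 1 * E.c = evalW s (P.powWord j)
        simp [E, hcdef]
    · show s' j * s' i = evalW s' (P.cjWord j i) * s' j
      have hj' : j < k + 1 := hj
      have hjn : j < P.n := by omega
      rw [hW' _ fun x hx => lt_of_lt_of_le (PC.wf_cjWord hwf hjn hi x hx) (Nat.lt_succ_iff.1 hj')]
      rcases Nat.lt_or_eq_of_le (Nat.lt_succ_iff.1 hj') with h | h
      · rw [hs'lt j h, hs'lt i (hi.trans h), ← map_mul, ← map_mul]
        exact congrArg _ (hs.2 j h i hi)
      · subst h
        rw [hs'k, hs'lt i hi]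
        refine Cyc.Elt.ext ?_ rfl
        show (1 : N) * E.α (s i) * 1 = evalW s (P.cjWord j i) * 1 * 1
        simp only [one_mul, mul_one]
        exact ha i hi
    · rw [Nat.card_congr (Cyc.equivProd E), Nat.card_prod, hcard, Nat.card_eq_fintype_card,
        Fintype.card_bool, pow_succ]
    · rw [eq_top_iff]
      rintro ⟨x, b⟩ -
      have hx : Cyc.incl E x ∈ initGroup s' (k + 1) := by
        have hx : x ∈ initGroup s k := htop ▸ Subgroup.mem_top x
        have h := Subgroup.mem_map_of_mem (Cyc.incl E) hx
        rw [map_initGroup, ← initGroup_congr hs'lt] at h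
        exact initGroup_mono s' (Nat.le_succ k) h
      cases b
      · exact hx
      · have ht' : top ∈ initGroup s' (k + 1) := hs'k ▸ mem_initGroup s' (Nat.lt_succ_self k)
        have e : (⟨x, true⟩ : Cyc.Elt E) = Cyc.incl E x * top := by
          refine Cyc.Elt.ext ?_ rfl
          show x = x * 1 * 1
          simp
        rw [e]
        exact mul_mem hx ht'

end Cfsg.Agent.TwE6Two
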