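import Cfsg.Agent.TwE6Two.Tables
import Cfsg.Agent.TwE6Two.PCModel
import Cfsg.Agent.ChevTw.TwE6

/-!
# The kernel checks for the multiplier of 2E6(2) (owner: helper57)
-/

set_option autoImplicit false
set_option maxRecDepth 100000
set_option maxHeartbeats 0

namespace Cfsg.Agent.TwE6Two

open Cfsg.Lie Cfsg.Agent.SchurCert Cfsg.Agent.ChevGrp Cfsg.Agent.ChevTw

/-- The letters of a word without the two central generators. -/
def strip (W : List ℕ) : List ℕ := (W.filter fun x => Nat.ble 2 x).map fun x => x - 2

/-- The word of a generator in the letters. -/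
def gw (i : ℕ) : List ℕ := gwTab.getD i []

/-- A word in the letters. -/
def gwW (W : List ℕ) : List ℕ := W.flatMap gw

/-- The root of a letter. -/
def lroot (l : ℕ) : ℕ := rootTab.getD l 0

/-- The parameter bit of a letter. -/
def lbit (l : ℕ) : Bool := bitTab.getD l false

/-- The letter with given root and bit. -/
def letterOf (r : ℕ) (b : Bool) : ℕ :=
  (List.range 72).findIdx fun l => Nat.beq (lroot l) r && (lbit l == b)

/-- The parameter `w` raised to the power of the exponent plus one or zero, as bits. -/
def paramBits (b : Bool) (e : ℕ) : Bool × Bool :=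
  match (e + (bif b then 1 else 0)) % 3 with
  | 0 => (true, false)
  | 1 => (false, true)
  | _ => (true, true)

/-- The letters of a root element. -/
def lettersOf (r : ℕ) (p : Bool × Bool) : List ℕ :=
  (bif p.2 then [letterOf r true] else []) ++ (bif p.1 then [letterOf r false] else [])

/-- The exponent of the torus element on a root. -/
def hExp (r : ℕ) : ℕ := ((chevE6.cartan 2 r + 2 * chevE6.cartan 4 r) % 3).toNat

/-- The orbit of a conjugation. -/
def orbOf (a : ℕ) : Fin twE6.nOrb := ⟨(a - 1) % twE6.nOrb, Nat.mod_lt _ (by decide)⟩

/-- The conjugate of a letter. -/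
def conjLetter (a l : ℕ) : List ℕ :=
  bif Nat.beq a 0 then lettersOf (lroot l) (paramBits (lbit l) (hExp (lroot l)))
  else lettersOf (act chevE6 (twE6.wJ chevE6 (orbOf a)) (lroot l)) (paramBits (lbit l) 0)

/-- The presentation of the extension lies over the other. -/
def shape38 : Bool :=
    (List.range 38).all fun j =>
      (bif Nat.ble 2 j then decide (strip (pc38.powWord j) = pc36.powWord (j - 2))
        else (strip (pc38.powWord j)).isEmpty) &&
      (List.range j).all fun i =>
        bif Nat.ble 2 i then decide (strip (pc38.cjWord j i) = pc36.cjWord (j - 2) (i - 2))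
        else (strip (pc38.cjWord j i)).isEmpty

/-- The presentation of the extension is consistent and lies over the other. -/
def ok38 : Bool :=
  pc38.wf && Nat.beq pc38.p 2 && Nat.beq pc38.n 38 && consistent pc38 && shape38

/-- One lift. -/
def okLiftAt (a : ℕ) : Bool :=
  let P := subPC.getD a ⟨2, 0, [], []⟩
  let ι := iotaTab.getD a []
  let im := imgTab.getD a []
  let f : List ℕ → List ℕ := fun W => W.map fun x => ι.getD x 0
  let g : List ℕ → List ℕ := fun W => W.flatMap fun x => im.getD x []
  P.wf && Nat.beq P.p 2 && decide (ι = 0 :: 1 :: (subTab.getD a []).map (· + 2)) &&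
    Nat.beq P.n ι.length &&
    ((List.range P.n).all fun j =>
      Nat.blt (ι.getD j 0) 38 && decide (f (P.powWord j) = pc38.powWord (ι.getD j 0)) &&
        sameNF pc38 (g [j, j]) (g (P.powWord j)) &&
        decide (strip (im.getD j []) =
          bif Nat.blt (ι.getD j 0) 2 then [] else (wTab.getD a []).getD (ι.getD j 0 - 2) []) &&
        (List.range j).all fun i =>
          Nat.blt (ι.getD i 0) (ι.getD j 0) &&
            decide (f (P.cjWord j i) = pc38.cjWord (ι.getD j 0) (ι.getD i 0)) &&
            sameNF pc38 (g [j, i]) (g (P.cjWord j i ++ [j]))) &&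
    decide (im.getD 0 [] = [0]) && decide (im.getD 1 [] = [1])

/-- The sources and images of the lifts. -/
def okLift : Bool := (List.range 5).all okLiftAt

/-- The presentation on the letters. -/
def ok72 : Bool :=
  pc72.wf && Nat.beq pc72.p 2 && Nat.beq pc72.n 72 &&
    ((List.range 72).all fun J =>
      decide (chevE6.IsPosRoot (lroot J)) && (pc72.powWord J).isEmpty &&
        (List.range J).all fun I =>
          let r := lroot J
          let s := lroot I
          bif Nat.beq r s then decide (pc72.cjWord J I = [I]) else
            !(Nat.beq s (chevE6.neg r)) &&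
              match chevE6.commTerms s r with
              | [] => decide (pc72.cjWord J I = [I])
              | [(k, c, 1, 1)] => (c == 1 || c == -1) &&
                  !(Nat.beq r k) && !(Nat.beq r (chevE6.neg k)) && (chevE6.commTerms k r).isEmpty &&
                  decide (pc72.cjWord J I =
                    I :: lettersOf k (paramBits (lbit J) (bif lbit I then 1 else 0)))
              | _ => false) &&
    ((List.range 72).all fun r => !(decide (chevE6.IsPosRoot r)) ||
      (Nat.blt (letterOf r false) 72 && Nat.blt (letterOf r true) 72))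

/-- One generator in the letters. -/
def okGenAt (j : ℕ) : Bool :=
  let L := topTab.getD j 0
  Nat.blt L 72 && ((gw j).all fun l => Nat.ble l L) && Nat.beq ((gw j).count L) 1 &&
    sameNF pc72 (gwW [j, j]) (gwW (pc36.powWord j)) &&
    (List.range j).all fun i =>
      Nat.blt (topTab.getD i 0) L && sameNF pc72 (gwW [j, i]) (gwW (pc36.cjWord j i ++ [j]))

/-- The generators in the letters. -/
def okGen : Bool :=
  pc36.wf && Nat.beq pc36.p 2 && Nat.beq pc36.n 36 && (List.range 36).all okGenAt

/-- The conjugations. -/
def okConj : Bool :=
  (List.range 5).all fun a =>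
    (subTab.getD a []).all fun i =>
      Nat.blt i 36 && ((gw i).all fun l =>
        Nat.beq a 0 || decide (chevE6.IsPosRoot (act chevE6 (twE6.wJ chevE6 (orbOf a)) (lroot l)))) &&
      Cert.below 36 ((wTab.getD a []).getD i []) &&
      sameNF pc72 ((gw i).flatMap (conjLetter a)) (gwW ((wTab.getD a []).getD i []))

/-- The sizes of the sources. -/
def okSub : Bool :=
  decide (subTab.getD 0 [] = List.range 36) &&
    (List.range 4).all fun J =>
      Nat.beq ((subTab.getD (J + 1) []).length + bif Nat.blt J 2 then 1 else 2) 36

end Cfsg.Agent.TwE6Two
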