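import Mathlib.Tactic.IntervalCases
import Cfsg.Agent.TwE6Two.Checks

/-! Kernel checks for the multiplier of 2E6(2), split to keep each one small (owner: helper57). -/

set_option autoImplicit false
set_option maxRecDepth 100000
set_option maxHeartbeats 0
set_option Elab.async false

namespace Cfsg.Agent.TwE6Two

theorem lift_0 : okLiftAt 0 = true := by decide +kernel

theorem lift_1 : okLiftAt 1 = true := by decide +kernel

theorem lift_2 : okLiftAt 2 = true := by decide +kernel

theorem lift_3 : okLiftAt 3 = true := by decide +kernel

theorem lift_4 : okLiftAt 4 = true := by decide +kernel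

theorem okLift_true : okLift = true := by
  rw [okLift, List.all_eq_true]
  intro a ha
  rw [List.mem_range] at ha
  interval_cases a
  · exact lift_0
  · exact lift_1
  · exact lift_2
  · exact lift_3
  · exact lift_4

end Cfsg.Agent.TwE6Two
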