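import Cfsg.Agent.TwE6Two.Checks

/-! The generators are fixed by the twist (owner: helper57). -/

set_option autoImplicit false
set_option maxRecDepth 100000
set_option maxHeartbeats 0

namespace Cfsg.Agent.TwE6Two

open Cfsg.Lie Cfsg.Agent.ChevTw

/-- The image of a letter under the twist. -/
def sigLetter (l : ℕ) : List ℕ :=
  lettersOf (twE6.root (lroot l)) (paramBits (lbit l) (bif lbit l then 1 else 0))

/-- The twist fixes the generators. -/
def okSig : Bool :=
  (List.range 36).all fun i =>
    ((gw i).all fun l => decide (chevE6.IsPosRoot (twE6.root (lroot l)))) &&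
      sameNF pc72 ((gw i).flatMap sigLetter) (gw i)

theorem okSig_true : okSig = true := by decide +kernel

end Cfsg.Agent.TwE6Two
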