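import Cfsg.Agent.TwE6Two.Linear

/-! A kernel check of the linear certificate for the multiplier of 2E6(2) (owner: helper57). -/

set_option autoImplicit false
set_option maxRecDepth 100000
set_option maxHeartbeats 0

namespace Cfsg.Agent.TwE6Two

theorem okRows3_true : okRows 432 648 = true := by decide +kernel

end Cfsg.Agent.TwE6Two
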