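import Cfsg.Agent.TwE6Two.CollectA
import Cfsg.Agent.TwE6Two.Tables
import Cfsg.Agent.SchurCert.Cert

/-!
# The linear certificate for the tails modulo four (owner: helper57)

Every equation is a multiset of variables whose product is one in every central extension by a group
of exponent dividing four.
-/

set_option autoImplicit false
set_option maxRecDepth 100000

namespace Cfsg.Agent.TwE6Two

open Cfsg.Agent.SchurCert

/-- Three copies: the inverse modulo four. -/
def tri (L : List ℕ) : List ℕ := L ++ (L ++ L)

/-- The two sides of a relation of the presentation. -/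
def relSides (j i : ℕ) : List ℕ × List ℕ :=
  bif Nat.beq j i then ([j, j], pc36.powWord j) else ([j, i], pc36.cjWord j i ++ [j])

/-- The variable of a relation. -/
def relVar (j i : ℕ) : ℕ := bif Nat.beq j i then PC.pVar j else PC.cVar j i

/-- The conjugate word of a generator. -/
def cw (a i : ℕ) : List ℕ := (wTab.getD a []).getD i []

/-- The conjugation variable of a generator. -/
def vv (a i : ℕ) : ℕ := (vvTab.getD a []).getD i 0

/-- An equation holds by collection. -/
def rowOK : ℕ × ℕ × ℕ × ℕ → Bool
  | (0, a, b, c) =>
    Cert.below 36 [a, b, c] && decide ((pc36.collect [a, b, c]).1 =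
      (pc36.collect (a :: PC.wordOf 36 (pc36.collect [b, c]).1)).1)
  | (k + 1, j, i, _) =>
    let s := relSides j i
    Nat.blt k 5 && Nat.blt j 36 && Nat.ble i j &&
      ((s.1 ++ s.2).all fun x => ((subTab.getD k []).contains x) && Cert.below 36 (cw k x)) &&
      decide ((pc36.collect (s.1.flatMap (cw k))).1 = (pc36.collect (s.2.flatMap (cw k))).1)

/-- The variables of an equation. -/
def rowForm : ℕ × ℕ × ℕ × ℕ → List ℕ
  | (0, a, b, c) =>
    (pc36.collect [a, b, c]).2 ++ tri ((pc36.collect [b, c]).2 ++
      (pc36.collect (a :: PC.wordOf 36 (pc36.collect [b, c]).1)).2)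
  | (k + 1, j, i, _) =>
    let s := relSides j i
    (pc36.collect (s.1.flatMap (cw k))).2 ++ s.1.map (vv k) ++
      tri ((pc36.collect (s.2.flatMap (cw k))).2 ++ s.2.map (vv k) ++ [relVar j i])

/-- A form is small. -/
def formOK (L : List ℕ) : Bool := L.all (fun x => Nat.blt x 840) && Nat.ble L.length 2000

/-- The bits that must vanish. -/
def mask : ℕ := 3 * packCount (List.range 840)

/-- All the equations in a range. -/
def okRows (lo hi : ℕ) : Bool :=
  (List.range hi).all fun k => Nat.blt k lo ||
    let e := rowTab.getD k (0, 0, 0, 0)
    let L := rowForm e ++ tri (formTab.getD k [])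
    rowOK e && formOK L && Nat.beq (Nat.land (packCount L) mask) 0

/-- The weight of a combination of packed equations. -/
def comboSum : List (List ℕ) → ℕ → ℕ
  | [], _ => 0
  | F :: Fs, lam =>
    bif Nat.beq (Nat.mod lam 4) 0 then comboSum Fs (Nat.div lam 4)
    else Nat.add (Nat.mul (Nat.mod lam 4) (packCount F)) (comboSum Fs (Nat.div lam 4))

/-- The forms are small. -/
def okForms : Bool := Nat.beq formTab.length 648 && Nat.beq rowTab.length 648 && formTab.all formOK

/-- A form is a combination of the equations modulo four. -/
def reduces (t : ℕ) (L : List ℕ) : Bool :=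
  formOK L && Nat.beq (Nat.land (packCount L + comboSum formTab (lamTab.getD t 0)) mask) 0

/-- The corrections along a word. -/
def betaW (W : List ℕ) : List ℕ := W.flatMap fun i => betaTab.getD i []

/-- The corrected tail of a relation against its value. -/
def target (j i : ℕ) : List ℕ :=
  let s := relSides j i
  let c := coefTab.getD (relVar j i) (0, 0)
  relVar j i :: betaW s.2 ++ tri (betaW s.1) ++
    tri ((List.replicate c.1 formA).flatten ++ (List.replicate c.2 formB).flatten)

/-- The corrected tails of one generator. -/
def okTargets (j : ℕ) : Bool :=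
  (List.range (j + 1)).all fun i => reduces (relVar j i) (target j i)

/-- The generators have order two. -/
def okGens : Bool := reduces 666 (formA ++ formA) && reduces 667 (formB ++ formB)

section Sound

variable {A : Type*} [CommGroup A]

theorem mask_bits : ((List.range 840).all fun l =>
    mask.testBit (24 * l) && mask.testBit (24 * l + 1)) = true := by decide +kernel

theorem prod_eq_one_of_count {f : ℕ → A} (hA : ∀ a : A, a ^ 4 = 1) {m : ℕ} :
    ∀ (L : List ℕ), (∀ x ∈ L, x < m) →
      (L.map f).prod = ∏ l ∈ Finset.range m, f l ^ L.count l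
  | [], _ => by simp
  | a :: L, h => by
    rw [List.map_cons, List.prod_cons, prod_eq_one_of_count hA L fun x hx => h x (List.mem_cons_of_mem _ hx)]
    have hone : ∀ l, f l ^ (a :: L).count l = (if a = l then f l else 1) * f l ^ L.count l := by
      intro l
      rw [List.count_cons]
      by_cases hl : a = l <;> simp [hl, pow_succ, mul_comm]
    rw [Finset.prod_congr rfl fun l _ => hone l, Finset.prod_mul_distrib, Finset.prod_ite_eq,
      if_pos (Finset.mem_range.2 (h a List.mem_cons_self))]

/-- The list of a combination. -/
def comboList : List (List ℕ) → ℕ → List ℕ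
  | [], _ => []
  | e :: es, lam => (List.replicate (lam % 4) e).flatten ++ comboList es (lam / 4)

theorem packCount_append (L M : List ℕ) : packCount (L ++ M) = packCount L + packCount M := by
  simp [packCount]

theorem packCount_replicate (n : ℕ) (L : List ℕ) :
    packCount (List.replicate n L).flatten = n * packCount L := by
  induction n with
  | zero => simp [packCount]
  | succ n ih => rw [List.replicate_succ, List.flatten_cons, packCount_append, ih]; ring

theorem comboSum_eq : ∀ es lam, comboSum es lam = packCount (comboList es lam)
  | [], _ => rfl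
  | e :: es, lam => by
    rw [comboList, packCount_append, packCount_replicate, ← comboSum_eq es]
    show (bif Nat.beq (lam % 4) 0 then comboSum es (lam / 4)
      else lam % 4 * packCount e + comboSum es (lam / 4)) = _
    cases h : Nat.beq (lam % 4) 0
    · simp
    · simp [Nat.eq_of_beq_eq_true h]

theorem comboList_spec : ∀ es lam, (∀ e ∈ es, formOK e = true) →
    (∀ x ∈ comboList es lam, x < 840) ∧ (comboList es lam).length ≤ 6000 * es.length
  | [], _, _ => ⟨by simp [comboList], by simp [comboList]⟩
  | e :: es, lam, h => by
    obtain ⟨h1, h2⟩ := comboList_spec es (lam / 4) fun x hx => h x (List.mem_cons_of_mem _ hx)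
    have he := h e List.mem_cons_self
    simp only [formOK, Bool.and_eq_true, List.all_eq_true, Nat.blt_eq, Nat.ble_eq] at he
    refine ⟨fun x hx => ?_, ?_⟩
    · simp only [comboList, List.mem_append, List.mem_flatten, List.mem_replicate] at hx
      rcases hx with ⟨l, ⟨-, rfl⟩, hx⟩ | hx
      · exact he.1 x hx
      · exact h1 x hx
    · simp only [comboList, List.length_append, List.length_flatten, List.map_replicate,
        List.sum_replicate, smul_eq_mul, List.length_cons]
      have h3 : lam % 4 * e.length ≤ 3 * 2000 := Nat.mul_le_mul (by omega) he.2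
      omega

/-- A form whose counts are all zero modulo four has product one. -/
theorem prod_of_mask {f : ℕ → A} (hA : ∀ a : A, a ^ 4 = 1) {M : List ℕ} (hM : ∀ x ∈ M, x < 840)
    (hlen : M.length < 2 ^ 24) (hN : Nat.land (packCount M) mask = 0) : (M.map f).prod = 1 := by
  have hcount : ∀ l < 840, M.count l % 4 = 0 := by
    intro l hl
    by_contra hc
    have hd := digit_sum (c := fun i => M.count i) (B := 2 ^ 24) (m := 840) hl
      (fun i => lt_of_le_of_lt List.count_le_length hlen)
    rw [← packCount_eq M hM, ← pow_mul] at hd
    have hbits := mask_bits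
    simp only [List.all_eq_true, List.mem_range, Bool.and_eq_true] at hbits
    obtain ⟨hb0, hb1⟩ := hbits l hl
    have hz : ∀ k, mask.testBit k = true → (packCount M).testBit k = false := fun k hk => by
      have h' : (packCount M &&& mask).testBit k = Nat.testBit 0 k := congrArg (fun n => Nat.testBit n k) hN
      simpa [hk] using h'
    refine hc ?_
    rw [show (4 : ℕ) = 2 ^ 2 from rfl]
    refine Nat.eq_of_testBit_eq fun i => ?_
    rw [Nat.testBit_mod_two_pow, Nat.zero_testBit]
    rcases i with _ | _ | i
    · have e := congrArg (fun n => Nat.testBit n 0) hd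
      simp only [Nat.testBit_mod_two_pow, Nat.testBit_div_two_pow, Nat.zero_add] at e
      rw [← e, hz _ hb0]
      simp
    · have e := congrArg (fun n => Nat.testBit n 1) hd
      simp only [Nat.testBit_mod_two_pow, Nat.testBit_div_two_pow] at e
      rw [← e, show 1 + 24 * l = 24 * l + 1 by omega, hz _ hb1]
      simp
    · simp
  rw [prod_eq_one_of_count (f := f) hA M hM]
  refine Finset.prod_eq_one fun l hl => ?_
  obtain ⟨k, hk⟩ := Nat.dvd_of_mod_eq_zero (hcount l (Finset.mem_range.1 hl))
  rw [hk, pow_mul, hA, one_pow]

/-- A checked equation holds for its form. -/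
theorem form_prod {f : ℕ → A} (hA : ∀ a : A, a ^ 4 = 1) {k lo hi : ℕ} (h : okRows lo hi = true)
    (h1 : lo ≤ k) (h2 : k < hi) (hrow : ((rowForm (rowTab.getD k (0, 0, 0, 0))).map f).prod = 1) :
    ((formTab.getD k []).map f).prod = 1 := by
  simp only [okRows, List.all_eq_true, List.mem_range, Bool.or_eq_true, Bool.and_eq_true, Nat.blt_eq] at h
  obtain ⟨⟨-, hf⟩, hm⟩ := (h k h2).resolve_left (not_lt.2 h1)
  simp only [formOK, Bool.and_eq_true, List.all_eq_true, Nat.blt_eq, Nat.ble_eq] at hf
  have := prod_of_mask hA (f := f) hf.1 (lt_of_le_of_lt hf.2 (by norm_num)) (Nat.eq_of_beq_eq_true hm)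
  simp only [List.map_append, List.prod_append, hrow, one_mul, tri] at this
  have h4 := hA ((formTab.getD k []).map f).prod
  rw [pow_succ', pow_succ', pow_succ', pow_one, this, mul_one] at h4
  exact h4

/-- A form reducing to the equations has product one. -/
theorem prod_of_reduces (hforms : okForms = true) {f : ℕ → A} (hA : ∀ a : A, a ^ 4 = 1)
    (hrow : ∀ F ∈ formTab, (F.map f).prod = 1) {t : ℕ} {L : List ℕ}
    (h : reduces t L = true) : (L.map f).prod = 1 := by
  simp only [okForms, Bool.and_eq_true, List.all_eq_true] at hforms
  simp only [reduces, Bool.and_eq_true] at h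
  obtain ⟨hL, hmask⟩ := h
  simp only [formOK, Bool.and_eq_true, List.all_eq_true, Nat.blt_eq, Nat.ble_eq] at hL
  set lam := lamTab.getD t 0
  obtain ⟨hc1, hc2⟩ := comboList_spec formTab lam hforms.2
  rw [Nat.eq_of_beq_eq_true hforms.1.1] at hc2
  have hone : ∀ es lam, (∀ e ∈ es, (e.map f).prod = 1) →
      ((comboList es lam).map f).prod = 1 := by
    intro es
    induction es with
    | nil => intro lam _; simp [comboList]
    | cons e es ih =>
      intro lam h
      rw [comboList, List.map_append, List.prod_append, ih _ fun x hx => h x (List.mem_cons_of_mem _ hx),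
        mul_one, List.map_flatten, List.map_replicate, List.prod_flatten, List.map_replicate,
        List.prod_replicate, h e List.mem_cons_self, one_pow]
  have hp := prod_of_mask hA (f := f) (M := L ++ comboList formTab lam)
    (fun x hx => (List.mem_append.1 hx).elim (hL.1 x) (hc1 x))
    (by rw [List.length_append]; omega)
    (by rw [packCount_append, ← comboSum_eq]; exact Nat.eq_of_beq_eq_true hmask)
  rw [List.map_append, List.prod_append, hone formTab lam hrow, mul_one] at hp
  exact hp

end Sound

end Cfsg.Agent.TwE6Two
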