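import Cfsg.Agent.SchurBound.Cores
import Mathlib.GroupTheory.GroupAction.Quotient
import Mathlib.GroupTheory.Index

/-!
# Stem extensions from stable central extensions of subgroups of odd index

A central extension of a subgroup of odd index by a group of exponent two, on which every element of
the group acts compatibly, is the restriction of a central extension of the group: the extension
induced on monomial pairs over the cosets, modulo the kernel of the product (owner: helper57).
-/

set_option autoImplicit false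

namespace Cfsg.Agent.TwE6Two

open Subgroup
open scoped commutatorElement

variable {G : Type} [Group G] {S : Type} [Group S] {C : Type} [CommGroup C]

/-- `g` lifts to a map of the extension where it conjugates the subgroup into itself. -/
def HasLift (U : Subgroup G) (π : S →* G) (ι : C →* S) (g : G) : Prop :=
  ∃ ψ : S → S, (∀ s, g * π s * g⁻¹ ∈ U → π (ψ s) = g * π s * g⁻¹) ∧
    (∀ s t, g * π s * g⁻¹ ∈ U → g * π t * g⁻¹ ∈ U → ψ (s * t) = ψ s * ψ t) ∧
      ∀ a, ψ (ι a) = ι a

section Closure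

variable {U : Subgroup G} {π : S →* G} {ι : C →* S}

/-- Lifts compose. -/
theorem HasLift.mul {g h : G} (hg : HasLift U π ι g) (hh : HasLift U π ι h)
    (hsub : ∀ s, g * h * π s * (g * h)⁻¹ ∈ U → h * π s * h⁻¹ ∈ U) : HasLift U π ι (g * h) := by
  obtain ⟨ψ, h1, h2, h3⟩ := hg
  obtain ⟨φ, k1, k2, k3⟩ := hh
  have e : ∀ s, g * (h * π s * h⁻¹) * g⁻¹ = g * h * π s * (g * h)⁻¹ := fun s => by group
  refine ⟨fun s => ψ (φ s), fun s hs => ?_, fun s t hs ht => ?_, fun a => by simp [k3, h3]⟩
  · have hm := hsub s hs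
    rw [h1 _ (by rw [k1 s hm, e]; exact hs), k1 s hm, e]
  · have hm := hsub s hs
    have hn := hsub t ht
    show ψ (φ (s * t)) = _
    rw [k2 s t hm hn, h2 _ _ (by rw [k1 s hm, e]; exact hs) (by rw [k1 t hn, e]; exact ht)]

/-- An element of the extension gives a lift of its image. -/
theorem hasLift_of_mem (hιc : ∀ a, ι a ∈ center S) (x : S) : HasLift U π ι (π x) := by
  refine ⟨fun s => x * s * x⁻¹, fun s _ => by simp, fun s t _ _ => by simp [mul_assoc], fun a => ?_⟩
  show x * ι a * x⁻¹ = ι a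
  rw [Subgroup.mem_center_iff.1 (hιc a) x, mul_inv_cancel_right]

/-- A homomorphism on the relevant subgroup gives a lift. -/
theorem hasLift_of_hom {g : G} (M : Subgroup S) (hM : ∀ s, g * π s * g⁻¹ ∈ U → s ∈ M) (f : ↥M →* S)
    (hf : ∀ m : ↥M, π (f m) = g * π m * g⁻¹) (hι : ∀ (a : C) (h : ι a ∈ M), f ⟨ι a, h⟩ = ι a) :
    HasLift U π ι g := by
  classical
  refine ⟨fun s => if h : s ∈ M then f ⟨s, h⟩ else s, fun s hs => ?_, fun s t hs ht => ?_, fun a => ?_⟩
  · simp only [dif_pos (hM s hs)]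
    exact hf _
  · simp only [dif_pos (hM s hs), dif_pos (hM t ht), dif_pos (mul_mem (hM s hs) (hM t ht))]
    exact map_mul f ⟨s, hM s hs⟩ ⟨t, hM t ht⟩
  · dsimp only
    split_ifs with h
    · exact hι a h
    · rfl

end Closure

variable (U : Subgroup G) (π : S →* G)

/-- The cosets. -/
abbrev Coset : Type := G ⧸ U

/-- The representative of a coset. -/
noncomputable def rep (x : Coset U) : G := Quotient.out x

theorem rep_spec (x : Coset U) : ((rep U x : G) : Coset U) = x := QuotientGroup.out_eq' x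

theorem rep_mem (g : G) (x : Coset U) : (rep U (g • x))⁻¹ * g * rep U x ∈ U := by
  rw [mul_assoc, ← QuotientGroup.eq, rep_spec, ← smul_eq_mul, ← MulAction.Quotient.smul_mk U g]
  exact congrArg _ (rep_spec U x).symm

/-- Monomial pairs. -/
@[ext]
structure Pair where
  /-- The entries. -/
  f : Coset U → S
  /-- The permutation part. -/
  g : G
  ok : ∀ x, π (f x) = (rep U (g • x))⁻¹ * g * rep U x

namespace Pair

variable {U π}

instance : One (Pair U π) := ⟨⟨fun _ => 1, 1, fun x => by simp⟩⟩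

instance : Mul (Pair U π) :=
  ⟨fun a b => ⟨fun x => a.f (b.g • x) * b.f x, a.g * b.g, fun x => by
    rw [map_mul, a.ok, b.ok, mul_smul]
    group⟩⟩

instance : Inv (Pair U π) :=
  ⟨fun a => ⟨fun x => (a.f (a.g⁻¹ • x))⁻¹, a.g⁻¹, fun x => by
    rw [map_inv, a.ok, smul_inv_smul]
    group⟩⟩

@[simp] theorem one_f (x : Coset U) : (1 : Pair U π).f x = 1 := rfl
@[simp] theorem one_g : (1 : Pair U π).g = 1 := rfl
@[simp] theorem mul_f (a b : Pair U π) (x : Coset U) : (a * b).f x = a.f (b.g • x) * b.f x := rfl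
@[simp] theorem mul_g (a b : Pair U π) : (a * b).g = a.g * b.g := rfl
@[simp] theorem inv_f (a : Pair U π) (x : Coset U) : a⁻¹.f x = (a.f (a.g⁻¹ • x))⁻¹ := rfl
@[simp] theorem inv_g (a : Pair U π) : a⁻¹.g = a.g⁻¹ := rfl

instance : Group (Pair U π) :=
  Group.ofLeftAxioms
    (fun a b c => Pair.ext (funext fun x => by simp [mul_smul, mul_assoc]) (mul_assoc _ _ _))
    (fun a => Pair.ext (funext fun x => by simp) (one_mul _))
    (fun a => Pair.ext (funext fun x => by simp) (inv_mul_cancel _))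

instance [Finite G] [Finite S] : Finite (Pair U π) :=
  Finite.of_injective (fun a => (a.f, a.g)) fun a b h => Pair.ext (Prod.ext_iff.1 h).1 (Prod.ext_iff.1 h).2

/-- The image in the group. -/
def toG : Pair U π →* G where
  toFun := Pair.g
  map_one' := rfl
  map_mul' _ _ := rfl

end Pair

section Main

variable {U π} [Finite G] [Finite S] [Finite C]
  (hπ : π.range = U) (hodd : ¬ 2 ∣ U.index) (ι : C →* S) (hιi : Function.Injective ι)
  (hιk : ι.range = π.ker) (hιc : ∀ a, ι a ∈ center S) (hexp : ∀ a : C, a * a = 1)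
  (hperf : commutator G = ⊤) (hlift : ∀ g, HasLift U π ι g)
  (hkill : ∀ (Q : Type) [CommGroup Q], ∀ μ : S →* Q, (∀ s, μ s * μ s = 1) → ∀ a, μ (ι a) = 1)

include hπ hodd hιi hιk hιc hexp hperf hlift hkill

/-- The stem extension. -/
theorem exists_stem_of_stable :
    ∃ (W : Type) (_ : Group W) (_ : Finite W) (σ : W →* G),
      Cfsg.IsStemExtension σ ∧ Nonempty (σ.ker ≃* C) := by
  classical
  haveI : Fintype (Coset U) := Fintype.ofFinite _
  -- the kernel in coordinates
  let co : S → C := fun s => if h : ∃ a, ι a = s then h.choose else 1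
  have hco : ∀ s, π s = 1 → ι (co s) = s := fun s hs => by
    have h : ∃ a, ι a = s := by
      have : s ∈ ι.range := hιk ▸ hs
      exact this
    simp only [co, dif_pos h]
    exact h.choose_spec
  have πι : ∀ a, π (ι a) = 1 := fun a => by
    have : ι a ∈ π.ker := hιk ▸ ⟨a, rfl⟩
    exact this
  have hcoι : ∀ a, co (ι a) = a := fun a => hιi (hco _ (πι a))
  have com : ∀ a s, s * ι a = ι a * s := fun a s => Subgroup.mem_center_iff.1 (hιc a) s
  have co_mul : ∀ s t, π s = 1 → π t = 1 → co (s * t) = co s * co t := fun s t hs ht =>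
    hιi (by rw [hco _ (by simp [hs, ht]), map_mul, hco s hs, hco t ht])
  have hcard : ∀ c : C, c ^ Fintype.card (Coset U) = c := by
    intro c
    obtain ⟨k, hk⟩ : Odd (Fintype.card (Coset U)) := by
      rw [Nat.odd_iff, ← Nat.card_eq_fintype_card, ← Subgroup.index]
      omega
    rw [hk, pow_succ, pow_mul, pow_two, hexp, one_pow, one_mul]
  -- a section
  let σ : G → S := fun g => if h : ∃ s, π s = g then h.choose else 1
  have hσ : ∀ g ∈ U, π (σ g) = g := fun g hg => by
    have h : ∃ s, π s = g := by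
      rw [← hπ] at hg
      exact hg
    simp only [σ, dif_pos h]
    exact h.choose_spec
  -- orbit data
  let base : Coset U → Coset U := fun x =>
    (Quotient.mk (MulAction.orbitRel ↥U (Coset U)) x).out
  have hbase : ∀ x, ∀ u ∈ U, base (u • x) = base x := fun x u hu => by
    simp only [base]
    exact congrArg Quotient.out (Quotient.sound (MulAction.orbitRel_apply.2 ⟨⟨u, hu⟩, rfl⟩))
  have hk : ∀ x, ∃ k ∈ U, k • base x = x := fun x => by
    have h : MulAction.orbitRel ↥U (Coset U) (base x) x :=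
      Quotient.exact (Quotient.out_eq (Quotient.mk (MulAction.orbitRel ↥U (Coset U)) x))
    obtain ⟨u, hu⟩ := MulAction.orbitRel_apply.1 h
    have hu' : (u : G) • x = base x := hu
    exact ⟨(u : G)⁻¹, inv_mem u.2, by rw [← hu', inv_smul_smul]⟩
  choose k hkU hkx using hk
  let t : Coset U → G := fun x => (rep U (base x))⁻¹ * (k x)⁻¹ * rep U x
  have htU : ∀ x, t x ∈ U := fun x => by
    show (rep U (base x))⁻¹ * (k x)⁻¹ * rep U x ∈ U
    have hb : base x = (k x)⁻¹ • x := eq_inv_smul_iff.2 (hkx x)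
    rw [hb]
    exact rep_mem U _ x
  choose ψ hψ1 hψ2 hψ3 using hlift
  let F : Pair U π → Coset U → S := fun y x =>
    σ (k (y.g • x)) * ψ (rep U (base x)) (σ (t (y.g • x)) * y.f x * (σ (t x))⁻¹) * (σ (k x))⁻¹
  have harg : ∀ (y : Pair U π) x, y.g ∈ U →
      rep U (base x) * π (σ (t (y.g • x)) * y.f x * (σ (t x))⁻¹) * (rep U (base x))⁻¹ =
        (k (y.g • x))⁻¹ * y.g * k x := by
    intro y x hy
    rw [map_mul, map_mul, map_inv, hσ _ (htU _), hσ _ (htU _), y.ok]
    simp only [t, hbase x _ hy]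
    group
  have hargU : ∀ (y : Pair U π) x, y.g ∈ U →
      rep U (base x) * π (σ (t (y.g • x)) * y.f x * (σ (t x))⁻¹) * (rep U (base x))⁻¹ ∈ U :=
    fun y x hy => by
      rw [harg y x hy]
      exact mul_mem (mul_mem (inv_mem (hkU _)) hy) (hkU _)
  have hF : ∀ (y : Pair U π) x, y.g ∈ U → π (F y x) = y.g := fun y x hy => by
    simp only [F]
    rw [map_mul, map_mul, map_inv, hσ _ (hkU _), hσ _ (hkU _), hψ1 _ _ (hargU y x hy), harg y x hy]
    group
  have hFmul : ∀ (a b : Pair U π) x, a.g ∈ U → b.g ∈ U → F (a * b) x = F a (b.g • x) * F b x := by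
    intro a b x ha hb
    have hb' : base (b.g • x) = base x := hbase x _ hb
    have e : σ (t (a.g • b.g • x)) * (a.f (b.g • x) * b.f x) * (σ (t x))⁻¹ =
        (σ (t (a.g • b.g • x)) * a.f (b.g • x) * (σ (t (b.g • x)))⁻¹) *
          (σ (t (b.g • x)) * b.f x * (σ (t x))⁻¹) := by group
    simp only [F, Pair.mul_f, Pair.mul_g, mul_smul, e, hb']
    rw [hψ2 _ _ _ (by rw [← hb']; exact hargU a _ ha) (hargU b x hb)]
    group
  let ε : Pair U π → Coset U → C := fun y x => co ((σ y.g)⁻¹ * F y x)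
  have hε : ∀ (y : Pair U π) x, y.g ∈ U → ι (ε y x) = (σ y.g)⁻¹ * F y x := fun y x hy =>
    hco _ (by rw [map_mul, map_inv, hσ _ hy, hF y x hy, inv_mul_cancel])
  let Φ : Pair U π → S := fun y => σ y.g * ι (∏ x, ε y x)
  have hΦπ : ∀ y : Pair U π, y.g ∈ U → π (Φ y) = y.g := fun y hy => by
    simp only [Φ, map_mul, πι, mul_one, hσ _ hy]
  have hΦmul : ∀ a b : Pair U π, a.g ∈ U → b.g ∈ U → Φ (a * b) = Φ a * Φ b := by
    intro a b ha hb
    have hab : (a * b).g ∈ U := mul_mem ha hb
    obtain ⟨c, hc⟩ : ∃ c, ι c = (σ (a * b).g)⁻¹ * (σ a.g * σ b.g) :=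
      ⟨_, hco _ (by rw [map_mul, map_mul, map_inv, hσ _ hab, hσ _ ha, hσ _ hb, Pair.mul_g,
        inv_mul_cancel])⟩
    have hc' : σ a.g * σ b.g = σ (a * b).g * ι c := by rw [hc, mul_inv_cancel_left]
    have he : ∀ x, ε (a * b) x = c * ε a (b.g • x) * ε b x := fun x => hιi (by
      rw [hε _ _ hab, hFmul a b x ha hb, map_mul, map_mul, hε b x hb, hc]
      have e1 : F a (b.g • x) = σ a.g * ι (ε a (b.g • x)) := by
        rw [hε a _ ha, mul_inv_cancel_left]
      rw [e1]
      calc (σ (a * b).g)⁻¹ * (σ a.g * ι (ε a (b.g • x)) * F b x)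
          = (σ (a * b).g)⁻¹ * σ a.g * (ι (ε a (b.g • x)) * σ b.g) * ((σ b.g)⁻¹ * F b x) := by group
        _ = _ := by
          rw [← com _ (σ b.g)]
          group)
    simp only [Φ, he]
    rw [Finset.prod_mul_distrib, Finset.prod_mul_distrib, Finset.prod_const, Finset.card_univ, hcard,
      show ∏ x, ε a (b.g • x) = ∏ x, ε a x from (MulAction.bijective b.g).prod_comp (ε a)]
    rw [map_mul, map_mul, mul_assoc (σ a.g), ← mul_assoc (ι _) (σ b.g), ← com _ (σ b.g)]
    simp only [← mul_assoc]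
    rw [hc']
  -- the part with trivial image
  let prodOf : Pair U π → C := fun y => ∏ x, co (y.f x)
  have fπ : ∀ y : Pair U π, y.g = 1 → ∀ x, π (y.f x) = 1 := fun y hy x => by
    rw [y.ok, hy]; simp
  have prodOf_mul : ∀ a b : Pair U π, a.g = 1 → b.g = 1 → prodOf (a * b) = prodOf a * prodOf b := by
    intro a b ha hb
    simp only [prodOf, ← Finset.prod_mul_distrib]
    refine Finset.prod_congr rfl fun x _ => ?_
    rw [Pair.mul_f, hb, one_smul, co_mul _ _ (fπ a ha x) (fπ b hb x)]
  have hΦ1 : ∀ y : Pair U π, y.g = 1 → Φ y = ι (prodOf y) := by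
    intro y hy
    have hy' : y.g ∈ U := hy ▸ one_mem U
    have hF1 : ∀ x, F y x = ι (co (y.f x)) := fun x => by
      simp only [F, hy, one_smul]
      rw [show σ (t x) * y.f x * (σ (t x))⁻¹ = ι (co (y.f x)) by
        rw [hco _ (fπ y hy x), ← hco _ (fπ y hy x), com, mul_inv_cancel_right], hψ3, com,
        mul_inv_cancel_right]
    obtain ⟨c, hc⟩ : ∃ c, ι c = σ y.g :=
      ⟨_, hco _ (by rw [hσ _ hy', hy])⟩
    have he : ∀ x, ε y x = c⁻¹ * co (y.f x) := fun x => hιi (by
      rw [hε y x hy', hF1, map_mul, map_inv, hc])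
    simp only [Φ, he, prodOf, Finset.prod_mul_distrib, Finset.prod_const, Finset.card_univ, hcard]
    rw [← hc, ← map_mul, mul_inv_cancel_left]
  have prodOf_conj : ∀ z y : Pair U π, y.g = 1 → prodOf (z * y * z⁻¹) = prodOf y := by
    intro z y hy
    simp only [prodOf]
    rw [← (MulAction.bijective z.g⁻¹).prod_comp fun x => co (y.f x)]
    refine Finset.prod_congr rfl fun x _ => congrArg co ?_
    simp only [Pair.mul_f, Pair.inv_f, Pair.inv_g, hy, one_smul]
    rw [← hco _ (fπ y hy _), com, mul_inv_cancel_right]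
  have conj_g : ∀ z y : Pair U π, y.g = 1 → (z * y * z⁻¹).g = 1 := fun z y hy => by simp [hy]
  let Nsub : Subgroup (Pair U π) :=
    { carrier := {y | y.g = 1 ∧ prodOf y = 1}
      one_mem' := ⟨rfl, by
        simp only [prodOf, Pair.one_f]
        exact Finset.prod_eq_one fun x _ => by rw [← map_one ι, hcoι]⟩
      mul_mem' := fun {a b} ha hb => ⟨by simp [ha.1, hb.1], by rw [prodOf_mul a b ha.1 hb.1, ha.2, hb.2, one_mul]⟩
      inv_mem' := fun {a} ha => by
        have h1 : a⁻¹.g = 1 := by simp [ha.1]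
        refine ⟨h1, ?_⟩
        have h := prodOf_mul a⁻¹ a h1 ha.1
        rw [inv_mul_cancel, ha.2, mul_one] at h
        rw [← h]
        simp only [prodOf, Pair.one_f]
        exact Finset.prod_eq_one fun x _ => by rw [← map_one ι, hcoι] }
  haveI : Nsub.Normal := ⟨fun y hy z => ⟨conj_g z y hy.1, (prodOf_conj z y hy.1).trans hy.2⟩⟩
  let B := Pair U π ⧸ Nsub
  let πB : B →* G := QuotientGroup.lift Nsub Pair.toG fun y hy => hy.1
  have eq_of : ∀ a b : Pair U π, a.g = 1 → b.g = 1 → prodOf a = prodOf b →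
      (a : B) = (b : B) := fun a b ha hb e => by
    rw [QuotientGroup.eq]
    have h1 : a⁻¹.g = 1 := by simp [ha]
    refine ⟨by simp [ha, hb], ?_⟩
    rw [prodOf_mul _ _ h1 hb, ← e, ← prodOf_mul _ _ h1 ha, inv_mul_cancel]
    simp only [prodOf, Pair.one_f]
    exact Finset.prod_eq_one fun x _ => by rw [← map_one ι, hcoι]
  -- lifts
  let canonP : G → Pair U π := fun g => ⟨fun x => σ ((rep U (g • x))⁻¹ * g * rep U x), g,
    fun x => hσ _ (rep_mem U g x)⟩
  have hπBs : Function.Surjective πB := fun g => ⟨((canonP g : Pair U π) : B), rfl⟩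
  have hπBker : πB.ker ≤ center B := by
    intro b hb
    obtain ⟨y, rfl⟩ := QuotientGroup.mk_surjective b
    have hy : y.g = 1 := hb
    rw [Subgroup.mem_center_iff]
    intro b'
    obtain ⟨z, rfl⟩ := QuotientGroup.mk_surjective b'
    have e := eq_of _ _ (conj_g z y hy) hy (prodOf_conj z y hy)
    rw [QuotientGroup.mk_mul, QuotientGroup.mk_mul, QuotientGroup.mk_inv, mul_inv_eq_iff_eq_mul] at e
    exact e
  -- the kernel
  let x₁ : Coset U := ((1 : G) : Coset U)
  let single : C →* Pair U π :=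
    { toFun := fun a => ⟨fun x => if x = x₁ then ι a else 1, 1, fun x => by split_ifs <;> simp [πι]⟩
      map_one' := Pair.ext (funext fun x => by simp) rfl
      map_mul' := fun a b => Pair.ext (funext fun x => by
        simp only [Pair.mul_f, one_smul]
        split_ifs <;> simp) (by simp) }
  have prod_single : ∀ a, prodOf (single a) = a := fun a => by
    simp only [prodOf]
    rw [Finset.prod_eq_single x₁]
    · show co (if x₁ = x₁ then ι a else 1) = a
      rw [if_pos rfl, hcoι]
    · intro x _ hx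
      show co (if x = x₁ then ι a else 1) = 1
      rw [if_neg hx, ← map_one ι, hcoι]
    · exact fun h => absurd (Finset.mem_univ _) h
  let κ : C →* B := (QuotientGroup.mk' Nsub).comp single
  have hκker : ∀ b, πB b = 1 → ∃ a, κ a = b := fun b hb => by
    obtain ⟨y, rfl⟩ := QuotientGroup.mk_surjective b
    exact ⟨prodOf y, eq_of _ _ rfl hb (prod_single _)⟩
  have hκinj : Function.Injective κ := fun a b h => by
    have h' : (single a)⁻¹ * single b ∈ Nsub := QuotientGroup.eq.1 h
    have h2 := h'.2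
    rw [← map_inv, ← map_mul, prod_single] at h2
    exact inv_mul_eq_one.1 h2
  -- the section over the subgroup
  let Θ₀ : S → Pair U π := fun s => canonP (π s) * single (co ((Φ (canonP (π s)))⁻¹ * s))
  have hπU : ∀ s, π s ∈ U := fun s => hπ ▸ ⟨s, rfl⟩
  have hΘg : ∀ s, (Θ₀ s).g = π s := fun s => by
    show π s * 1 = π s
    exact mul_one _
  have hΦΘ : ∀ s, Φ (Θ₀ s) = s := fun s => by
    simp only [Θ₀]
    rw [hΦmul _ _ (hπU s) (one_mem U), hΦ1 (single _) rfl, prod_single,
      hco _ (by rw [map_mul, map_inv, hΦπ (canonP (π s)) (hπU s)]; exact inv_mul_cancel _),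
      mul_inv_cancel_left]
  have hΦinj : ∀ a b : Pair U π, a.g ∈ U → a.g = b.g → Φ a = Φ b → (a : B) = (b : B) := by
    intro a b ha hab e
    rw [QuotientGroup.eq]
    have h1 : (a⁻¹ * b).g = 1 := by simp [hab]
    refine ⟨h1, hιi ?_⟩
    rw [← hΦ1 _ h1, map_one]
    have h2 := hΦmul a (a⁻¹ * b) ha (h1 ▸ one_mem U)
    rw [mul_inv_cancel_left, ← e] at h2
    exact left_eq_mul.1 h2
  let Θ : S →* B := MonoidHom.mk' (fun s => ((Θ₀ s : Pair U π) : B)) fun s s' => by
    rw [← QuotientGroup.mk_mul]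
    have hs : (Θ₀ s).g ∈ U := by rw [hΘg]; exact hπU s
    have hs' : (Θ₀ s').g ∈ U := by rw [hΘg]; exact hπU s'
    refine hΦinj _ _ (by rw [hΘg]; exact hπU _) ?_ ?_
    · exact ((hΘg (s * s')).trans (map_mul π s s')).trans (congrArg₂ (· * ·) (hΘg s).symm (hΘg s').symm)
    · rw [hΦmul _ _ hs hs', hΦΘ, hΦΘ, hΦΘ]
  have hΘι : ∀ a, Θ (ι a) = κ a := fun a => by
    refine hΦinj _ _ (by rw [hΘg]; exact hπU _) (by rw [hΘg, πι]; rfl) ?_
    rw [hΦΘ, hΦ1 _ (rfl : (single a).g = 1), prod_single]
  -- the kernel lies in the commutator subgroup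
  have hin : ∀ a, κ a ∈ commutator B := by
    let q : B →* Abelianization B := Abelianization.of
    have hq : ∀ z, ∃ a, q z = q (κ a) := by
      intro z
      have hz : πB z ∈ (commutator B).map πB := by
        rw [CentralExt.map_commutator_top πB hπBs, hperf]
        exact Subgroup.mem_top _
      obtain ⟨d, hd, e⟩ := hz
      obtain ⟨a, ha⟩ := hκker (d⁻¹ * z) (by rw [map_mul, map_inv, e, inv_mul_cancel])
      refine ⟨a, ?_⟩
      have hd1 : q d = 1 := Abelianization.commutator_subset_ker _ hd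
      rw [ha, map_mul, map_inv, hd1, inv_one, one_mul]
    intro a
    have h := hkill (Abelianization B) (q.comp Θ) (fun s => by
      obtain ⟨b, hb⟩ := hq (Θ s)
      show q (Θ s) * q (Θ s) = 1
      rw [hb, ← map_mul, ← map_mul, hexp, map_one, map_one]) a
    rw [MonoidHom.comp_apply, hΘι] at h
    rw [← Abelianization.ker_of B]
    exact MonoidHom.mem_ker.2 h
  refine ⟨commutator B, inferInstance, inferInstance, πB.comp (commutator B).subtype,
    SchurBound.isStem_commutator hperf πB hπBs hπBker, ?_⟩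
  let e : C →* ↥(πB.comp (commutator B).subtype).ker :=
    (κ.codRestrict (commutator B) hin).codRestrict _ fun a => MonoidHom.mem_ker.2 rfl
  refine ⟨(MulEquiv.ofBijective e ⟨fun a b h => hκinj ?_, fun z => ?_⟩).symm⟩
  · exact congrArg (fun w : ↥(πB.comp (commutator B).subtype).ker => w.1.1) h
  · obtain ⟨a, ha⟩ := hκker _ z.2
    exact ⟨a, Subtype.ext (Subtype.ext ha)⟩

end Main

end Cfsg.Agent.TwE6Two
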