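import Cfsg.Agent.TwE6Two.Unip
import Cfsg.Agent.TwE6Two.Transfer
import Cfsg.Agent.TwE6Two.Check38
import Cfsg.Agent.TwE6Two.CheckLift
import Cfsg.Agent.BNPair.Basic
import Cfsg.Agent.ChevTw.TwE6Perfect
import Cfsg.Agent.ChevTwOrd.E6
import Cfsg.Agent.TwE6Mult.PPart

/-!
# A stem extension of 2E6(2) with kernel a four-group (owner: helper57)

The extension of the Sylow 2-subgroup given by the tables is stable under the torus and the orbit Weyl
elements, hence, by the Bruhat decomposition, under every element.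
-/

set_option autoImplicit false
set_option maxRecDepth 100000

namespace Cfsg.Agent.TwE6Two

open Cfsg.Lie Cfsg.Agent.SchurCert Cfsg.Agent.ChevGrp Cfsg.Agent.ChevTw Cfsg.Agent.GFour25

attribute [local instance] instCharTwoF4

/-- The group. -/
abbrev G2 : Type := ↥Gtw

/-- The generators of the Sylow subgroup in the group. -/
noncomputable def gG (i : ℕ) : G2 := if h : i < 36 then ⟨gel i, (gel_mem_U h).2⟩ else 1

theorem gG_val {i : ℕ} (h : i < 36) : (gG i : A4) = gel i := by rw [gG, dif_pos h]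

theorem evalW_gG (W : List ℕ) (hW : ∀ x ∈ W, x < 36) : ((evalW gG W : G2) : A4) = evalW gel W := by
  induction W with
  | nil => rfl
  | cons i W ih =>
    rw [evalW_cons, evalW_cons, Subgroup.coe_mul, gG_val (hW i List.mem_cons_self),
      ih fun x hx => hW x (List.mem_cons_of_mem _ hx)]

/-- The Sylow subgroup. -/
noncomputable abbrev UG : Subgroup G2 := U4.subgroupOf Gtw

theorem satG : SatPC pc36 gG := by
  obtain ⟨hwf, -, hn⟩ := pc36_data
  refine ⟨fun j hj => Subtype.ext ?_, fun j hj i hi => Subtype.ext ?_⟩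
  · rw [Subgroup.coe_pow, gG_val (hn ▸ hj),
      evalW_gG _ fun x hx => (PC.wf_powWord hwf hj x hx).trans (hn ▸ hj)]
    exact sat36.1 j hj
  · rw [Subgroup.coe_mul, Subgroup.coe_mul, gG_val (hn ▸ hj), gG_val (hi.trans (hn ▸ hj)),
      evalW_gG _ fun x hx => (PC.wf_cjWord hwf hj hi x hx).trans (hn ▸ hj)]
    exact sat36.2 j hj i hi

theorem initGroupG : initGroup gG 36 = UG := by
  refine Subgroup.map_injective Gtw.subtype_injective ?_
  rw [map_initGroup, Subgroup.subgroupOf_map_subtype, inf_eq_left.2 inf_le_right]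
  exact (initGroup_congr fun i hi => gG_val hi).trans initGroup36

theorem card_UG : Nat.card ↥UG = 2 ^ 36 := by
  rw [Nat.card_congr (Subgroup.subgroupOfEquivOfLe (inf_le_right : U4 ≤ Gtw)).toEquiv, card_U4]

theorem perfectG : commutator G2 = ⊤ := thm_S1104 hq2 hK4

theorem odd_index : ¬ 2 ∣ (UG : Subgroup G2).index := by
  intro hd
  haveI : Fact (Nat.Prime 2) := ⟨Nat.prime_two⟩
  have h3 := Subgroup.card_mul_index (UG : Subgroup G2)
  rw [card_UG] at h3
  have h4 := ChevTwOrd.order_E6 hq2 hK4 (thm_S1102 hq2 hK4)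
  rw [← h3, mul_left_comm, mul_assoc, mul_assoc, mul_assoc, mul_assoc, mul_assoc,
    Nat.mul_right_inj (pow_ne_zero _ two_ne_zero)] at h4
  refine TwE6Mult.cofactor_not_dvd (q := 2) (p := 2) (by omega) dvd_rfl ?_
  rw [mul_assoc, mul_assoc, mul_assoc, mul_assoc, ← h4]
  exact hd.trans (Nat.dvd_mul_left _ _)

/-- The images of the generators of the extension. -/
noncomputable def t38 (i : ℕ) : G2 := if i < 2 then 1 else gG (i - 2)

theorem evalW_strip (W : List ℕ) : evalW t38 W = evalW gG (strip W) := by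
  induction W with
  | nil => rfl
  | cons i W ih =>
    rw [evalW_cons, ih]
    by_cases h : i < 2
    · have hb : Nat.ble 2 i = false := by
        cases e : Nat.ble 2 i
        · rfl
        · exact absurd (Nat.ble_eq.mp e) (not_le.2 h)
      simp [strip, hb, t38, h]
    · have hb : Nat.ble 2 i = true := Nat.ble_eq.mpr (not_lt.1 h)
      simp [strip, hb, t38, h]

theorem pc38_data : pc38.wf = true ∧ pc38.p = 2 ∧ pc38.n = 38 ∧ consistent pc38 = true := by
  have h := ok38_true
  simp only [ok38, Bool.and_eq_true] at h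
  exact ⟨h.1.1.1.1, Nat.eq_of_beq_eq_true h.1.1.1.2, Nat.eq_of_beq_eq_true h.1.1.2, h.1.2⟩

theorem sat_t38 : SatPC pc38 t38 := by
  obtain ⟨-, hp, hn, -⟩ := pc38_data
  obtain ⟨-, hp', hn'⟩ := pc36_data
  have h := ok38_true
  simp only [ok38, shape38, Bool.and_eq_true, List.all_eq_true, List.mem_range] at h
  refine ⟨fun j hj => ?_, fun j hj i hi => ?_⟩
  · have hj' : j < 38 := hn ▸ hj
    have hs := (h.2 j hj').1
    rw [evalW_strip, hp]
    by_cases h2 : j < 2
    · rw [show Nat.ble 2 j = false from Bool.eq_false_iff.2 fun e => absurd (Nat.ble_eq.mp e) (by omega),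
        cond_false, List.isEmpty_iff] at hs
      rw [hs]
      simp [t38, h2]
    · rw [show Nat.ble 2 j = true from Nat.ble_eq.mpr (by omega), cond_true] at hs
      rw [of_decide_eq_true hs]
      simp only [t38, if_neg h2]
      rw [← hp']
      exact satG.1 (j - 2) (by omega)
  · have hj' : j < 38 := hn ▸ hj
    have hs := (h.2 j hj').2 i hi
    rw [evalW_strip]
    by_cases h2 : i < 2
    · rw [show Nat.ble 2 i = false from Bool.eq_false_iff.2 fun e => absurd (Nat.ble_eq.mp e) (by omega),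
        cond_false, List.isEmpty_iff] at hs
      rw [hs]
      simp [t38, h2]
    · rw [show Nat.ble 2 i = true from Nat.ble_eq.mpr (by omega), cond_true] at hs
      rw [of_decide_eq_true hs]
      simp only [t38, if_neg h2, if_neg (show ¬ j < 2 by omega)]
      exact satG.2 (j - 2) (by omega) (i - 2) (by omega)

/-- In a presented group of full order no generator lies in the earlier ones. -/
theorem not_mem_of_card {Γ : Type} [Group Γ] [Finite Γ] {P : PC} {s : ℕ → Γ} (hwf : P.wf = true)
    (hs : SatPC P s) (hp : P.p = 2) (hc : Nat.card (initGroup s P.n) = 2 ^ P.n) {L : ℕ} (hL : L < P.n) :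
    s L ∉ initGroup s L := by
  intro hmem
  have hle : ∀ k, L < k → k ≤ P.n → Nat.card (initGroup s k) ≤ 2 ^ (k - 1) := by
    intro k
    induction k with
    | zero => intro h; omega
    | succ k ih =>
      intro hk hk'
      rcases Nat.lt_or_eq_of_le (Nat.lt_succ_iff.1 hk) with h | h
      · have h1 := card_initGroup_succ_le hwf hs (by omega) (k := k) (by omega)
        have h2 := ih h (by omega)
        rw [hp] at h1
        refine h1.trans (le_trans (Nat.mul_le_mul_left 2 h2) ?_)
        rw [← pow_succ', show k - 1 + 1 = k by omega, Nat.add_sub_cancel]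
      · subst h
        have : initGroup s (L + 1) ≤ initGroup s L := by
          rw [initGroup, Subgroup.closure_le]
          rintro _ ⟨i, hi, rfl⟩
          rcases Nat.lt_or_eq_of_le (Nat.lt_succ_iff.1 hi) with h | rfl
          · exact mem_initGroup s h
          · exact hmem
        refine (Subgroup.card_le_of_le this).trans ?_
        have h2 := card_initGroup_le hwf hs (by omega) (k := L) (by omega)
        rwa [hp] at h2
  have := hle P.n hL le_rfl
  rw [hc] at this
  exact absurd ((Nat.pow_le_pow_iff_right one_lt_two).1 this) (by omega)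

theorem decomp_pair : ∀ x y : ZMod 2, Multiplicative.ofAdd (x, y) =
    Multiplicative.ofAdd ((1 : ZMod 2), (0 : ZMod 2)) ^ x.val *
      Multiplicative.ofAdd ((0 : ZMod 2), (1 : ZMod 2)) ^ y.val := by decide

section Ext

variable {S : Type} [Group S] [Finite S] {s : ℕ → S} {π : S →* G2} (hs : SatPC pc38 s)
  (hcard : Nat.card S = 2 ^ 38) (htop : initGroup s 38 = ⊤) (hπ : ∀ i < 38, π (s i) = t38 i)

include hs hcard htop hπ

theorem range_eq : π.range = UG := by
  rw [MonoidHom.range_eq_map, ← htop, map_initGroup, ← initGroupG]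
  refine le_antisymm ?_ ?_
  · rw [initGroup, Subgroup.closure_le]
    rintro _ ⟨i, hi, rfl⟩
    have hi' : i < 38 := hi
    show π (s i) ∈ _
    rw [hπ i hi', t38]
    split_ifs
    · exact one_mem _
    · exact mem_initGroup gG (by omega)
  · refine Subgroup.closure_le _ |>.2 ?_
    rintro _ ⟨i, hi, rfl⟩
    have hi' : i < 36 := hi
    have := mem_initGroup (fun k => π (s k)) (show i + 2 < 38 by omega)
    simp only [hπ (i + 2) (by omega), t38, if_neg (show ¬ i + 2 < 2 by omega)] at this
    simpa using this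

theorem ker_data : π.ker = initGroup s 2 ∧ Nat.card ↥π.ker = 4 := by
  obtain ⟨hwf, hp, hn, -⟩ := pc38_data
  have hle : initGroup s 2 ≤ π.ker := by
    rw [initGroup, Subgroup.closure_le]
    rintro _ ⟨i, hi, rfl⟩
    have hi' : i < 2 := hi
    show π (s i) = 1
    rw [hπ i (by omega), t38, if_pos hi']
  have hc2 : Nat.card ↥(initGroup s 2) = 4 := by
    rw [card_initGroup_eq hwf hs (by omega) (by rw [hp]; exact Nat.prime_two) (k := 2) (by omega)
      (fun j hj => not_mem_of_card hwf hs hp (by rw [hn, htop, Subgroup.card_top, hcard]) (by omega)), hp]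
    norm_num
  have hk : Nat.card ↥π.ker = 4 := by
    have h := Subgroup.card_eq_card_quotient_mul_card_subgroup π.ker
    rw [Nat.card_congr (QuotientGroup.quotientKerEquivRange π).toEquiv, range_eq hs hcard htop hπ,
      card_UG, hcard] at h
    omega
  exact ⟨(Subgroup.eq_of_le_of_card_ge hle (by rw [hk, hc2])).symm, hk⟩

/-- The four-group in the extension. -/
theorem exists_iota : ∃ ι : Multiplicative (ZMod 2 × ZMod 2) →* S, Function.Injective ι ∧
    ι.range = π.ker ∧ (∀ a, ι a ∈ Subgroup.center S) ∧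
      ι (Multiplicative.ofAdd (1, 0)) = s 0 ∧ ι (Multiplicative.ofAdd (0, 1)) = s 1 := by
  obtain ⟨hwf, hp, hn, -⟩ := pc38_data
  have hrel : ∀ i < 2, s i ^ 2 = 1 := fun i hi => by
    have h := hs.1 i (by omega)
    have e : ((List.range 2).all fun i => decide (pc38.powWord i = [])) = true := by decide +kernel
    simp only [List.all_eq_true, List.mem_range] at e
    rw [hp, of_decide_eq_true (e i hi)] at h
    simpa using h
  have hcomm : ∀ i < 2, ∀ j < 38, Commute (s j) (s i) := fun i hi j hj => by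
    have e : ((List.range 2).all fun i => (List.range 38).all fun j =>
        decide (i < j → pc38.cjWord j i = [i]) && decide (j < i → pc38.cjWord i j = [j])) = true := by
      decide +kernel
    simp only [List.all_eq_true, List.mem_range, Bool.and_eq_true] at e
    rcases Nat.lt_trichotomy i j with h | h | h
    · have := hs.2 j (by omega) i h
      rw [(of_decide_eq_true (e i hi j hj).1) h] at this
      simpa [Commute, SemiconjBy] using this
    · subst h; exact Commute.refl _
    · have := hs.2 i (by omega) j h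
      rw [(of_decide_eq_true (e i hi j hj).2) h] at this
      exact (show Commute (s i) (s j) by simpa [Commute, SemiconjBy] using this).symm
  have hcen : ∀ i < 2, s i ∈ Subgroup.center S := fun i hi => by
    rw [Subgroup.mem_center_iff]
    intro g
    have hg : g ∈ initGroup s 38 := htop ▸ Subgroup.mem_top g
    refine Subgroup.closure_induction (p := fun g _ => g * s i = s i * g) ?_ ?_ ?_ ?_ hg
    · rintro _ ⟨j, hj, rfl⟩
      exact (hcomm i hi j hj).eq
    · simp
    · intro a b _ _ ha hb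
      exact (Commute.mul_left ha hb).eq
    · intro a _ ha
      exact (Commute.inv_left ha).eq
  have hadd : ∀ i < 2, ∀ a b : ZMod 2, s i ^ (a + b).val = s i ^ a.val * s i ^ b.val := fun i hi a b => by
    have hm : ∀ n, s i ^ n = s i ^ (n % 2) := fun n => by
      conv_lhs => rw [← Nat.div_add_mod n 2, pow_add, pow_mul, hrel i hi, one_pow, one_mul]
    rw [← pow_add, hm (a.val + b.val), ZMod.val_add]
  let ι : Multiplicative (ZMod 2 × ZMod 2) →* S := MonoidHom.mk'
    (fun a => s 0 ^ (Multiplicative.toAdd a).1.val * s 1 ^ (Multiplicative.toAdd a).2.val) fun a b => by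
    simp only [toAdd_mul, Prod.fst_add, Prod.snd_add, hadd 0 (by omega), hadd 1 (by omega)]
    exact Commute.mul_mul_mul_comm (((hcomm 1 (by omega) 0 (by omega)).pow_pow _ _)) _ _
  obtain ⟨hk, hk4⟩ := ker_data hs hcard htop hπ
  have h10 : ι (Multiplicative.ofAdd (1, 0)) = s 0 := by simp [ι, ZMod.val_one]
  have h01 : ι (Multiplicative.ofAdd (0, 1)) = s 1 := by simp [ι, ZMod.val_one]
  have hrange : ι.range = π.ker := by
    rw [hk]
    refine le_antisymm ?_ ?_
    · rintro _ ⟨a, rfl⟩
      exact mul_mem (pow_mem (mem_initGroup s (by omega)) _) (pow_mem (mem_initGroup s (by omega)) _)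
    · rw [initGroup, Subgroup.closure_le]
      rintro _ ⟨i, hi, rfl⟩
      have hi' : i < 2 := hi
      interval_cases i
      · exact ⟨_, h10⟩
      · exact ⟨_, h01⟩
  refine ⟨ι, ?_, hrange, fun a => mul_mem (pow_mem (hcen 0 (by omega)) _) (pow_mem (hcen 1 (by omega)) _),
    h10, h01⟩
  have hsur : Function.Surjective ι.rangeRestrict := ι.rangeRestrict_surjective
  have hc : Nat.card (Multiplicative (ZMod 2 × ZMod 2)) ≤ Nat.card ↥ι.range := by
    rw [hrange, hk4, Nat.card_congr Multiplicative.toAdd, Nat.card_prod, Nat.card_zmod]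
  intro a b e
  exact (hsur.bijective_of_nat_card_le hc).1 (Subtype.ext e)

variable {ι : Multiplicative (ZMod 2 × ZMod 2) →* S} (hι : ι.range = π.ker)
  (hιc : ∀ a, ι a ∈ Subgroup.center S) (hι0 : ι (Multiplicative.ofAdd (1, 0)) = s 0)
  (hι1 : ι (Multiplicative.ofAdd (0, 1)) = s 1)

/-- The element of the group conjugating. -/
noncomputable def celG (a : ℕ) : G2 := ⟨cel a, cel_mem a⟩

omit hs hcard htop hπ in
theorem celG_conj_gG {a : ℕ} (ha : a < 5) {i : ℕ} (hi : i ∈ subTab.getD a []) :
    celG a * gG i * (celG a)⁻¹ = evalW gG ((wTab.getD a []).getD i []) := by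
  obtain ⟨h1, h2, h3⟩ := cel_conj ha hi
  refine Subtype.ext ?_
  rw [evalW_gG _ h2, Subgroup.coe_mul, Subgroup.coe_mul, Subgroup.coe_inv, gG_val h1]
  exact h3

omit hs hcard htop hπ in
theorem celG0_normal {x : G2} (hx : x ∈ UG) : celG 0 * x * (celG 0)⁻¹ ∈ UG := by
  have h0 := okSub_true
  simp only [okSub, Bool.and_eq_true] at h0
  have hx' : x ∈ initGroup gG 36 := initGroupG ▸ hx
  rw [← initGroupG]
  refine Subgroup.closure_induction (p := fun x _ => celG 0 * x * (celG 0)⁻¹ ∈ initGroup gG 36) ?_ ?_ ?_ ?_ hx'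
  · rintro _ ⟨i, hi, rfl⟩
    have him : i ∈ subTab.getD 0 [] := by
      rw [of_decide_eq_true h0.1]
      exact List.mem_range.2 hi
    rw [celG_conj_gG (by omega) him]
    exact evalW_mem_initGroup gG _ (cel_conj (by omega) him).2.1
  · simp
  · intro a b _ _ ha hb
    have := mul_mem ha hb
    simpa [mul_assoc] using this
  · intro a _ ha
    have := inv_mem ha
    simpa [mul_assoc] using this

omit hs hcard htop hπ in
theorem card_conj_le {a : ℕ} (ha : a < 5) (K : Subgroup G2) (hKU : K ≤ UG)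
    (hK : ∀ x ∈ K, celG a * x * (celG a)⁻¹ ∈ UG) :
    Nat.card ↥K ≤ 2 ^ (subTab.getD a []).length := by
  have h0 := okSub_true
  simp only [okSub, Bool.and_eq_true, List.all_eq_true, List.mem_range] at h0
  rcases Nat.eq_zero_or_pos a with rfl | hpos
  · rw [of_decide_eq_true h0.1, List.length_range, ← card_UG]
    exact Subgroup.card_le_of_le hKU
  obtain ⟨J, rfl⟩ : ∃ J, a = J + 1 := ⟨a - 1, by omega⟩
  have hJ : J < twE6.nOrb := lt_of_lt_of_le (show J < 4 by omega) (by decide)
  have horb : orbOf (J + 1) = (⟨J, hJ⟩ : Fin twE6.nOrb) := Fin.ext (by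
    simp only [orbOf, Nat.add_sub_cancel]
    exact Nat.mod_eq_of_lt hJ)
  have hcel : cel (J + 1) = S4.nW (twE6.wJ chevE6 ⟨J, hJ⟩) := by
    rw [cel, if_neg (Nat.succ_ne_zero J), horb]
  have hc : S4.ConjP (cel (J + 1)) (O4.wJ ⟨J, hJ⟩) := by
    rw [hcel]
    exact S4.conjP_nW rulesF rootE6 _
  let P : Set G2 := {c | (c : A4) ∈ fixUS T4 (O4.posJ ⟨J, hJ⟩)}
  have hPcard : Nat.card ↥P = 2 ^ (bif Nat.blt J 2 then 1 else 2) := by
    have e : ↥P ≃ ↥(fixUS T4 (O4.posJ ⟨J, hJ⟩)) :=
      { toFun := fun c => ⟨c.1.1, c.2⟩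
        invFun := fun c => ⟨⟨c.1, W4.fixPos_mem _ c.2⟩, c.2⟩
        left_inv := fun _ => rfl
        right_inv := fun _ => rfl }
    rw [Nat.card_congr e, card_fixE6 hq2 hK4]
    by_cases h : J < 2
    · rw [if_pos h, show Nat.blt J 2 = true from Nat.ble_eq_true_of_le h, cond_true, pow_one]
    · rw [if_neg h, show Nat.blt J 2 = false from Bool.eq_false_iff.2 fun e => h (Nat.le_of_ble_eq_true e),
        cond_false]
  have hmemU : ∀ c ∈ P, c ∈ (UG : Subgroup G2) := fun c hc =>
    Subgroup.mem_subgroupOf.2 (Subgroup.mem_inf.2 ⟨S4.US_mono (fun r hr => hr.1) hc.1, c.2⟩)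
  let f : ↥K × ↥P → ↥(UG : Subgroup G2) := fun p =>
    ⟨p.1.1 * p.2.1, mul_mem (hKU p.1.2) (hmemU _ p.2.2)⟩
  have hf : Function.Injective f := by
    rintro ⟨k, c⟩ ⟨k', c'⟩ e
    have e' : k.1 * c.1 = k'.1 * c'.1 := congrArg Subtype.val e
    have hd : c'.1 * c.1⁻¹ = k'.1⁻¹ * k.1 := by
      rw [mul_inv_eq_iff_eq_mul, mul_assoc, e', inv_mul_cancel_left]
    have h1 : cel (J + 1) * ((c'.1 * c.1⁻¹ : G2) : A4) * (cel (J + 1))⁻¹ ∈ S4.Vbar ⊓ S4.Bbar := by
      refine Subgroup.mem_inf.2 ⟨?_, ?_⟩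
      · have hin : ((c'.1 * c.1⁻¹ : G2) : A4) ∈ S4.US (O4.posJ ⟨J, hJ⟩) :=
          mul_mem c'.2.1 (inv_mem c.2.1)
        refine S4.US_mono ?_ (conjP_mem_US hc O4.posJ_lt hin)
        rintro _ ⟨r, hr, rfl⟩
        exact (O4.act_wJ_mem rootE6 _ hr).1
      · rw [hd]
        exact S4.Ubar_le_Bbar (Subgroup.mem_inf.1 (Subgroup.mem_subgroupOf.1
          (hK _ (mul_mem (inv_mem k'.2) k.2)))).1
    rw [S4.Vbar_inf_Bbar rulesF rootE6, Subgroup.mem_bot, conj_eq_one_iff] at h1
    have hcc : c'.1 = c.1 := mul_inv_eq_one.1 (Subtype.ext h1)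
    rw [hcc] at e'
    exact Prod.ext (Subtype.ext (mul_right_cancel e')) (Subtype.ext hcc.symm)
  have h1 := Nat.card_le_card_of_injective f hf
  rw [Nat.card_prod, hPcard, card_UG, ← Nat.eq_of_beq_eq_true (h0.2 J (by omega)), pow_add] at h1
  exact Nat.le_of_mul_le_mul_right h1 (pow_pos two_pos _)

include hι hιc hι0 hι1

/-- The torus element and the orbit Weyl elements lift. -/
theorem hasLift_cel {a : ℕ} (ha : a < 5) : HasLift UG π ι (celG a) := by
  obtain ⟨hwf, hp, hn, -⟩ := pc38_data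
  have hL := okLift_true
  simp only [okLift, okLiftAt, Bool.and_eq_true, List.all_eq_true, List.mem_range, Nat.blt_eq] at hL
  obtain ⟨⟨⟨⟨⟨⟨hwf', hp'⟩, hiota⟩, hlen⟩, hrow⟩, him0⟩, him1⟩ := hL a ha
  set P := subPC.getD a ⟨2, 0, [], []⟩
  set io := iotaTab.getD a []
  set im := imgTab.getD a []
  let v : ℕ → S := fun j => s (io.getD j 0)
  let w : ℕ → S := fun j => evalW s (im.getD j [])
  have hmapW : ∀ W : List ℕ, evalW v W = evalW s (W.map fun x => io.getD x 0) := fun W => by
    simp [evalW, v, Function.comp_def]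
  have hflat : ∀ W : List ℕ, evalW w W = evalW s (W.flatMap fun x => im.getD x []) := fun W =>
    (evalW_flatMap s _ W).symm
  have hpn : P.p = 2 := Nat.eq_of_beq_eq_true hp'
  have hv : SatPC P v := by
    refine ⟨fun j hj => ?_, fun j hj i hi => ?_⟩
    · obtain ⟨⟨⟨⟨h1, h2⟩, -⟩, -⟩, -⟩ := hrow j hj
      rw [hmapW, of_decide_eq_true h2, hpn]
      have := hs.1 (io.getD j 0) (by omega)
      rwa [hp] at this
    · obtain ⟨⟨⟨⟨h1, -⟩, -⟩, -⟩, h5⟩ := hrow j hj
      obtain ⟨⟨h6, h7⟩, -⟩ := h5 i hi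
      rw [hmapW, of_decide_eq_true h7]
      exact hs.2 (io.getD j 0) (by omega) (io.getD i 0) h6
  have hwsat : SatPC P w := by
    refine ⟨fun j hj => ?_, fun j hj i hi => ?_⟩
    · obtain ⟨⟨⟨-, h3⟩, -⟩, -⟩ := hrow j hj
      have e := evalW_eq_of_sameNF hwf hs h3
      rw [← hflat, ← hflat] at e
      rw [hpn, pow_two]
      simpa using e
    · obtain ⟨-, h5⟩ := hrow j hj
      obtain ⟨-, h8⟩ := h5 i hi
      have e := evalW_eq_of_sameNF hwf hs h8
      rw [← hflat, ← hflat, evalW_append] at e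
      simpa using e
  have hiov : io = 0 :: 1 :: (subTab.getD a []).map (· + 2) := of_decide_eq_true hiota
  have hm : P.n = (subTab.getD a []).length + 2 := by
    rw [Nat.eq_of_beq_eq_true hlen, hiov]
    simp
  have hvcard : Nat.card ↥(initGroup v P.n) = 2 ^ P.n := by
    rw [card_initGroup_eq hwf' hv (by omega) (by rw [hpn]; exact Nat.prime_two) (k := P.n) le_rfl ?_, hpn]
    intro j hj hmem
    obtain ⟨⟨⟨⟨h1, -⟩, -⟩, -⟩, h5⟩ := hrow j hj
    refine not_mem_of_card hwf hs hp (by rw [hn, htop, Subgroup.card_top, hcard])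
      (show io.getD j 0 < pc38.n by omega) ?_
    refine (Subgroup.closure_le _).2 ?_ hmem
    rintro _ ⟨i, hi, rfl⟩
    exact mem_initGroup s (h5 i hi).1.1
  obtain ⟨f, hf⟩ := exists_hom_of_sat hwf' hpn hv hvcard hwsat
  -- the image in the group
  have hfπ : ∀ m : ↥(initGroup v P.n), π (f m) = celG a * π m * (celG a)⁻¹ := by
    have key : π.comp f = ((MulAut.conj (celG a)).toMonoidHom.comp π).comp (initGroup v P.n).subtype := by
      refine MonoidHom.eq_of_eqOn_dense (s := {m | ∃ i, ∃ hi : i < P.n, m = ⟨v i, mem_initGroup v hi⟩}) ?_ ?_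
      · rw [eq_top_iff]
        rintro ⟨x, hx⟩ -
        refine Subgroup.closure_induction
          (p := fun x hx => (⟨x, hx⟩ : ↥(initGroup v P.n)) ∈ Subgroup.closure _) ?_ (one_mem _) ?_ ?_ hx
        · rintro _ ⟨i, hi, rfl⟩
          exact Subgroup.subset_closure ⟨i, hi, rfl⟩
        · intro y z _ _ hy hz
          exact mul_mem hy hz
        · intro y _ hy
          exact inv_mem hy
      · rintro _ ⟨j, hj, rfl⟩
        obtain ⟨⟨⟨⟨h1, -⟩, -⟩, h4⟩, -⟩ := hrow j hj
        show π (f ⟨v j, _⟩) = celG a * π (v j) * (celG a)⁻¹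
        rw [hf j hj, hπ _ h1]
        have hwj : π (w j) = evalW t38 (im.getD j []) := by
          rw [map_evalW]
          unfold evalW
          refine congrArg List.prod (List.map_congr_left fun x hx => hπ x ?_)
          by_contra hx38
          obtain ⟨⟨-, h3⟩, -⟩ := (hrow j hj).1
          have hb := (Bool.and_eq_true_iff.1 (Bool.and_eq_true_iff.1 h3).1).1
          have := mem_below hb x (List.mem_flatMap.2 ⟨j, List.mem_cons_self, hx⟩)
          omega
        rw [hwj, evalW_strip, of_decide_eq_true h4]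
        by_cases h2 : io.getD j 0 < 2
        · rw [show Nat.blt (io.getD j 0) 2 = true from Nat.ble_eq_true_of_le h2, cond_true, t38, if_pos h2]
          simp
        · rw [show Nat.blt (io.getD j 0) 2 = false from
            Bool.eq_false_iff.2 fun e => h2 (Nat.le_of_ble_eq_true e), cond_false, t38, if_neg h2]
          refine (celG_conj_gG ha ?_).symm
          have hjio : j < io.length := by rw [← Nat.eq_of_beq_eq_true hlen]; exact hj
          have hmemio : io.getD j 0 ∈ io := by
            rw [List.getD_eq_getElem _ _ hjio]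
            exact List.getElem_mem hjio
          have hmem' : ∀ k ∈ io, k = 0 ∨ k = 1 ∨ ∃ i ∈ subTab.getD a [], i + 2 = k := fun k hk => by
            rw [hiov] at hk
            simp only [List.mem_cons, List.mem_map] at hk
            exact hk
          rcases hmem' _ hmemio with e | e | ⟨i, hi, e⟩
          · omega
          · omega
          · rw [← e, Nat.add_sub_cancel]
            exact hi
    exact fun m => DFunLike.congr_fun key m
  -- the source is everything conjugated into the subgroup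
  let K : Subgroup G2 := UG ⊓ UG.comap (MulAut.conj (celG a)).toMonoidHom
  have hKmem : ∀ x, x ∈ K ↔ x ∈ UG ∧ celG a * x * (celG a)⁻¹ ∈ UG := fun x => Iff.rfl
  have hrg := range_eq hs hcard htop hπ
  have hin : ∀ y, π y ∈ (UG : Subgroup G2) := fun y => hrg ▸ ⟨y, rfl⟩
  have hMle : initGroup v P.n ≤ K.comap π := fun x hx => by
    rw [Subgroup.mem_comap, hKmem]
    refine ⟨hin x, ?_⟩
    rw [← hfπ ⟨x, hx⟩]
    exact hin _
  have hcardK : Nat.card ↥(K.comap π) ≤ 2 ^ P.n := by
    classical
    obtain ⟨-, hk4⟩ := ker_data hs hcard htop hπ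
    let sec : G2 → S := fun g => if h : ∃ y, π y = g then h.choose else 1
    have hsec : ∀ y, π (sec (π y)) = π y := fun y => by
      have h : ∃ y', π y' = π y := ⟨y, rfl⟩
      simp only [sec, dif_pos h]
      exact h.choose_spec
    let g : ↥(K.comap π) → ↥π.ker × ↥K := fun x =>
      (⟨x.1 * (sec (π x.1))⁻¹, by rw [MonoidHom.mem_ker, map_mul, map_inv, hsec, mul_inv_cancel]⟩, ⟨π x.1, x.2⟩)
    have hg : Function.Injective g := fun x y e => by
      have e1 : x.1 * (sec (π x.1))⁻¹ = y.1 * (sec (π y.1))⁻¹ := congrArg (fun p => p.1.1) e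
      have e2 : π x.1 = π y.1 := congrArg (fun p => p.2.1) e
      rw [e2] at e1
      exact Subtype.ext (mul_right_cancel e1)
    refine (Nat.card_le_card_of_injective g hg).trans ?_
    rw [Nat.card_prod, hk4, hm, pow_add, mul_comm]
    exact Nat.mul_le_mul_right _ (card_conj_le ha K (fun x hx => ((hKmem x).1 hx).1)
      fun x hx => ((hKmem x).1 hx).2)
  have hM : initGroup v P.n = K.comap π :=
    Subgroup.eq_of_le_of_card_ge hMle (by rw [hvcard]; exact hcardK)
  refine hasLift_of_hom (initGroup v P.n) (fun y hy => ?_) f hfπ ?_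
  · rw [hM, Subgroup.mem_comap, hKmem]
    exact ⟨hin y, hy⟩
  have h0n : 0 < P.n := by omega
  have h1n : 1 < P.n := by omega
  have hv0 : v 0 = s 0 := by simp [v, hiov]
  have hv1 : v 1 = s 1 := by simp [v, hiov]
  have hw0 : w 0 = s 0 := by
    have : im.getD 0 [] = [0] := of_decide_eq_true him0
    simp only [w, this, evalW_cons, evalW_nil, mul_one]
  have hw1 : w 1 = s 1 := by
    have : im.getD 1 [] = [1] := of_decide_eq_true him1
    simp only [w, this, evalW_cons, evalW_nil, mul_one]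
  intro b hb
  have hall : ∀ b, ι b ∈ initGroup v P.n := fun b => by
    rw [hM, Subgroup.mem_comap, show π (ι b) = 1 from (hι ▸ ⟨b, rfl⟩ : ι b ∈ π.ker)]
    exact one_mem _
  let φ : Multiplicative (ZMod 2 × ZMod 2) →* S := f.comp (ι.codRestrict _ hall)
  have e0 : φ (Multiplicative.ofAdd (1, 0)) = ι (Multiplicative.ofAdd (1, 0)) := by
    exact ((congrArg f (Subtype.ext (hι0.trans hv0.symm))).trans (hf 0 h0n)).trans (hw0.trans hι0.symm)
  have e1 : φ (Multiplicative.ofAdd (0, 1)) = ι (Multiplicative.ofAdd (0, 1)) := by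
    exact ((congrArg f (Subtype.ext (hι1.trans hv1.symm))).trans (hf 1 h1n)).trans (hw1.trans hι1.symm)
  show φ b = ι b
  obtain ⟨⟨x, y⟩, rfl⟩ : ∃ p, Multiplicative.ofAdd p = b := ⟨b.toAdd, rfl⟩
  rw [decomp_pair x y, map_mul, map_mul, map_pow, map_pow, map_pow, map_pow, e0, e1]

/-- The subgroup of the Borel group normalising: its elements lift. -/
theorem hasLift_Hbar {h : G2} (hh : (h : A4) ∈ S4.Hbar) :
    (∃ k, h = celG 0 ^ k) ∧ HasLift UG π ι h := by
  have hmemH : hT ∈ S4.Hbar := by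
    obtain ⟨-, -, -, -, -, -, -, -, s2, -, s4, -⟩ := negE6
    have hom : om ≠ 0 := by decide
    refine mul_mem (Subgroup.subset_closure ⟨⟨2, by decide⟩, om, hom, ?_⟩)
      (Subgroup.subset_closure ⟨⟨4, by decide⟩, om ^ 2, pow_ne_zero 2 hom, ?_⟩)
    · rw [show chevE6.simple (⟨2, by decide⟩ : Fin chevE6.rank).val = 42 from s2]
    · rw [show chevE6.simple (⟨4, by decide⟩ : Fin chevE6.rank).val = 37 from s4]
  haveI : Fact (Nat.Prime 3) := ⟨Nat.prime_three⟩
  have hne : celG 0 ≠ 1 := by
    intro e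
    have hi : (3 : ℕ) ∈ subTab.getD 0 [] := by decide +kernel
    have h3 := celG_conj_gG (a := 0) (by omega) hi
    rw [e, one_mul, inv_one, mul_one, show (wTab.getD 0 []).getD 3 [] = (wTab.getD 0 []).getD 3 [] from rfl] at h3
    have hval := congrArg (fun g : G2 => (g : A4)) h3
    simp only [gG_val (show 3 < 36 by omega), evalW_gG _ (cel_conj (show 0 < 5 by omega) hi).2.1] at hval
    have hchk : ((pc36.collect [3]).1 == (pc36.collect ((wTab.getD 0 []).getD 3 [])).1) = false := by
      decide +kernel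
    have hwd : ((wTab.getD 0 []).getD 3 []) = [4] ∨ ((wTab.getD 0 []).getD 3 []) = [3, 4] ∨
        ((wTab.getD 0 []).getD 3 []) = [4, 3] := by decide +kernel
    have hnm := gel_not_mem (show 4 < 36 by omega)
    have h3m : gel 3 ∈ initGroup gel 4 := mem_initGroup gel (by omega)
    rcases hwd with e' | e' | e' <;> simp only [e', evalW_cons, evalW_nil, mul_one] at hval <;> apply hnm
    · rwa [← hval]
    · rw [left_eq_mul] at hval
      rw [hval]
      exact one_mem _
    · rw [right_eq_mul] at hval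
      rw [hval]
      exact one_mem _
  let D : Subgroup G2 := S4.Hbar.subgroupOf Gtw
  have hD3 : Nat.card ↥D = 3 := by
    have h := thm_S1102 hq2 hK4
    rw [diagonalSubgroup_eq rulesF rootE6] at h
    have e : Nat.card ↥D = Nat.card ↥(S4.Hbar ⊓ Gtw) := by
      rw [show D = (S4.Hbar ⊓ Gtw).subgroupOf Gtw by rw [Subgroup.inf_subgroupOf_right],
        Nat.card_congr (Subgroup.subgroupOfEquivOfLe inf_le_right).toEquiv]
    rw [e]
    exact Nat.eq_of_mul_eq_mul_left three_pos
      (show 3 * Nat.card ↥(S4.Hbar ⊓ Gtw) = 3 * 3 from h.trans (by norm_num))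
  have hz := zpowers_eq_top_of_prime_card hD3 (g := (⟨celG 0, Subgroup.mem_subgroupOf.2 (by
    show cel 0 ∈ S4.Hbar
    rw [cel, if_pos rfl]
    exact hmemH)⟩ : ↥D)) fun e => hne (congrArg Subtype.val e)
  have hp : (⟨h, Subgroup.mem_subgroupOf.2 hh⟩ : ↥D) ∈ Submonoid.powers
      (⟨celG 0, Subgroup.mem_subgroupOf.2 (by show cel 0 ∈ S4.Hbar; rw [cel, if_pos rfl]; exact hmemH)⟩ : ↥D) := by
    rw [mem_powers_iff_mem_zpowers, hz]
    exact Subgroup.mem_top _
  obtain ⟨k, hk⟩ := hp
  have hk' : celG 0 ^ k = h := congrArg Subtype.val hk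
  refine ⟨⟨k, hk'.symm⟩, ?_⟩
  rw [← hk']
  have hin : ∀ y, π y ∈ (UG : Subgroup G2) := fun y => range_eq hs hcard htop hπ ▸ ⟨y, rfl⟩
  have hpow : ∀ k, ∀ x ∈ (UG : Subgroup G2), celG 0 ^ k * x * (celG 0 ^ k)⁻¹ ∈ UG := fun k => by
    induction k with
    | zero => simp
    | succ k ih =>
      intro x hx
      have := ih _ (celG0_normal hx)
      rw [pow_succ]
      simpa [mul_assoc] using this
  clear hk hk'
  induction k with
  | zero =>
    rw [pow_zero, ← map_one π]
    exact hasLift_of_mem hιc 1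
  | succ k ih =>
    rw [pow_succ]
    exact ih.mul (hasLift_cel hs hcard htop hπ hι hιc hι0 hι1 (by omega)) fun y _ => celG0_normal (hin y)

/-- The monomial elements lift. -/
theorem hasLift_Nbar {n : G2} (hn : (n : A4) ∈ S4.Nbar) : HasLift UG π ι n := by
  obtain ⟨w, hw⟩ := TwGroup.conjP_of_mem_Nbar rulesF rootE6 hn
  induction hm : (invSet chevE6 w).ncard using Nat.strong_induction_on generalizing w n with
  | _ m ih =>
    have hwc := W4.comm_of_conjP rulesF rootE6 n.2 hw
    rcases O4.cases_comm rulesF rootE6 hwc with h | ⟨J, hJ⟩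
    · exact (hasLift_Hbar hs hcard htop hπ hι hιc hι0 hι1
        (TwGroup.mem_Hbar_of_conjP rulesF rootE6 hn hw h)).2
    obtain ⟨hc, hd, he, hlt⟩ := O4.descend rootE6 hwc hJ
    have hJ4 : J.val < 4 := lt_of_lt_of_le J.2 (by decide)
    have hcel : cel (J.val + 1) = S4.nW (O4.wJ J) := by
      rw [cel, if_neg (Nat.succ_ne_zero _),
        show orbOf (J.val + 1) = J from Fin.ext (by simp [orbOf, Nat.mod_eq_of_lt J.2])]
      rfl
    have hcN : cel (J.val + 1) ∈ S4.Nbar := hcel ▸ S4.nW_mem_Nbar _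
    have hcP : S4.ConjP (cel (J.val + 1)) (O4.wJ J) := hcel ▸ S4.conjP_nW rulesF rootE6 _
    set c := celG (J.val + 1)
    have hn' : ((n * c⁻¹ : G2) : A4) ∈ S4.Nbar := mul_mem hn (inv_mem hcN)
    have hw' : S4.ConjP ((n * c⁻¹ : G2) : A4) (w ++ (O4.wJ J).reverse) := hw.mul rootE6 (hcP.inv rootE6)
    have hact : ∀ r < chevE6.nroots,
        act chevE6 (w ++ (O4.wJ J).reverse) r = act chevE6 (w ++ O4.wJ J) r := fun r hr => by
      rw [act_append, act_append]
      congr 1
      conv_lhs => rw [← O4.winv J _ (rootE6.act_lt _ hr), rootE6.act_act_reverse _ hr]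
    have hlt' : (invSet chevE6 (w ++ (O4.wJ J).reverse)).ncard < m := by
      rw [invSet_congr chevE6 hact]
      exact hm ▸ hlt
    have h1 := ih _ hlt' hn' _ hw' rfl
    have h2 := hasLift_cel hs hcard htop hπ hι hιc hι0 hι1 (a := J.val + 1) (by omega)
    have key : n * c⁻¹ * c = n := inv_mul_cancel_right n c
    rw [← key]
    refine h1.mul h2 fun y hy => ?_
    rw [key] at hy
    -- the elements that the monomial element keeps positive avoid the orbit
    have hy' : π y ∈ (UG : Subgroup G2) := range_eq hs hcard htop hπ ▸ ⟨y, rfl⟩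
    obtain ⟨hyU, hyT⟩ := Subgroup.mem_inf.1 (Subgroup.mem_subgroupOf.1 hy')
    have hlon := (twE6_ok.isLongest (T := T4) (fun _ => rfl) rfl).invSet_eq rootE6
    set w0 := O4.word twE6.longSeq
    set Aset := invSet chevE6 (w0 ++ w) with hAdef
    have hA : ∀ r, r ∈ Aset ↔ chevE6.IsPosRoot r ∧ chevE6.IsPosRoot (act chevE6 w r) := by
      intro r
      simp only [hAdef, invSet, Set.mem_ofPred_eq, act_append]
      refine ⟨fun ⟨h1, h2⟩ => ⟨h1, ?_⟩, fun ⟨h1, h2⟩ => ⟨h1, ?_⟩⟩
      · by_contra hneg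
        have hn2 := rootE6.neg_of_not_pos (rootE6.act_lt w h1.1) hneg
        have h3 := (rootE6.pos_neg_iff (rootE6.act_lt w h1.1)).2 hn2
        have h4 : chevE6.neg (act chevE6 w r) ∈ invSet chevE6 w0 := by rw [hlon]; exact h3
        have h5 := h4.2
        rw [rootE6.act_neg w0 (rootE6.act_lt w h1.1)] at h5
        have h6 := (rootE6.pos_neg_iff (rootE6.act_lt w0 (rootE6.act_lt w h1.1))).2 h2
        exact rootE6.not_pos_and_neg h6 h5
      · have h4 : act chevE6 w r ∈ invSet chevE6 w0 := by rw [hlon]; exact h2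
        exact h4.2
    obtain ⟨u, hu, v, hv, huv⟩ := S4.US_eq_mul rootE6 rootE6.posSet_closed
      (rootE6.inv_closed (w0 ++ w)) (rootE6.inv_closed w)
      (Set.ext fun r => ⟨fun h => h.elim (fun h => h.1) fun h => h.1, fun hr => by
        by_cases hp : chevE6.IsPosRoot (act chevE6 w r)
        · exact Or.inl ((hA r).2 ⟨hr, hp⟩)
        · exact Or.inr ⟨hr, rootE6.neg_of_not_pos (rootE6.act_lt w hr.1) hp⟩⟩)
      (Set.disjoint_left.2 fun r h1 h2 => rootE6.not_pos_and_neg ((hA r).1 h1).2 h2.2) hyU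
    have hAlt : ∀ r ∈ Aset, r < chevE6.nroots := fun r hr => hr.1.1
    have hnu : (n : A4) * u * (n : A4)⁻¹ ∈ S4.Ubar := by
      refine S4.US_mono ?_ (conjP_mem_US hw hAlt hu)
      rintro _ ⟨r, hr, rfl⟩
      exact ((hA r).1 hr).2
    have hnv : (n : A4) * v * (n : A4)⁻¹ ∈ S4.Vbar ⊓ S4.Bbar := by
      refine Subgroup.mem_inf.2 ⟨?_, ?_⟩
      · refine S4.US_mono ?_ (conjP_mem_US hw (fun r hr => hr.1.1) hv)
        rintro _ ⟨r, hr, rfl⟩
        exact hr.2
      · have hy2 : (n : A4) * ((π y : G2) : A4) * (n : A4)⁻¹ ∈ S4.Ubar :=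
          (Subgroup.mem_inf.1 (Subgroup.mem_subgroupOf.1 hy)).1
        rw [huv] at hy2
        refine S4.Ubar_le_Bbar ?_
        have := mul_mem (inv_mem hnu) hy2
        simpa [mul_assoc] using this
    rw [S4.Vbar_inf_Bbar rulesF rootE6, Subgroup.mem_bot, conj_eq_one_iff] at hnv
    rw [hnv, mul_one] at huv
    refine Subgroup.mem_subgroupOf.2 (Subgroup.mem_inf.2 ⟨?_, (c * π y * c⁻¹).2⟩)
    show cel (J.val + 1) * ((π y : G2) : A4) * (cel (J.val + 1))⁻¹ ∈ S4.Ubar
    rw [huv]
    refine S4.US_mono ?_ (conjP_mem_US hcP hAlt hu)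
    rintro _ ⟨r, hr, rfl⟩
    obtain ⟨hrp, hrw⟩ := (hA r).1 hr
    refine (O4.act_wJ_out rootE6 J hrp fun hin => ?_).1
    exact rootE6.not_pos_and_neg hrw (hJ hin).2

/-- Every element lifts. -/
theorem hasLift_all (g : G2) : HasLift UG π ι g := by
  obtain ⟨P, hB, hN, -⟩ : ∃ P : Cfsg.BNPair G2, P.B = (S4.Bbar ⊓ Gtw).subgroupOf Gtw ∧
      P.N = (S4.Nbar ⊓ Gtw).subgroupOf Gtw ∧ True := by
    obtain ⟨P, h1, h2, -⟩ :=
      W4.exists_BNPair_gens rulesF rootE6 (twE6_ok.isLongest (T := T4) (fun _ => rfl) rfl)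
    exact ⟨P, h1, h2, trivial⟩
  obtain ⟨w, m, -, b, hb, b', hb', rfl⟩ := BNPair.exists_mem_C P g
  have hrg := range_eq hs hcard htop hπ
  have hBdec : ∀ x : G2, x ∈ P.B → HasLift UG π ι x ∧ (∀ z ∈ (UG : Subgroup G2), x * z * x⁻¹ ∈ UG) := by
    intro x hx
    have hx' : (x : A4) ∈ S4.Bbar ⊓ Gtw := Subgroup.mem_subgroupOf.1 ((SetLike.ext_iff.1 hB x).1 hx)
    obtain ⟨u, hu, h, hh, e⟩ := W4.B_decomp rulesF rootE6 (O4.comm_word rootE6 _)
      ((twE6_ok.isLongest (T := T4) (fun _ => rfl) rfl).invSet_eq rootE6) (Subgroup.mem_inf.1 hx').1 (Subgroup.mem_inf.1 hx').2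
    obtain ⟨huU, huT⟩ := Subgroup.mem_inf.1 hu
    obtain ⟨hhH, hhT⟩ := Subgroup.mem_inf.1 hh
    set u' : G2 := ⟨u, huT⟩
    set h' : G2 := ⟨h, hhT⟩
    have ex : x = u' * h' := Subtype.ext e
    have huG : u' ∈ (UG : Subgroup G2) := Subgroup.mem_subgroupOf.2 hu
    obtain ⟨⟨k, hk⟩, hl⟩ := hasLift_Hbar hs hcard htop hπ hι hιc hι0 hι1 (h := h') hhH
    have hnorm : ∀ z ∈ (UG : Subgroup G2), h' * z * h'⁻¹ ∈ UG := by
      rw [hk]
      clear hk hl
      induction k with
      | zero => simp
      | succ k ihk =>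
        intro z hz
        have := ihk _ (celG0_normal hz)
        rw [pow_succ]
        simpa [mul_assoc] using this
    obtain ⟨y, hy⟩ : u' ∈ π.range := hrg.symm ▸ huG
    refine ⟨?_, fun z hz => ?_⟩
    · rw [ex]
      refine HasLift.mul ?_ hl fun z _ => hnorm _ (hrg ▸ ⟨z, rfl⟩)
      rw [← hy]
      exact hasLift_of_mem hιc y
    · have := mul_mem (mul_mem huG (hnorm z hz)) (inv_mem huG)
      rw [ex]
      simpa [mul_assoc] using this
  obtain ⟨hb1, hb2⟩ := hBdec b hb
  obtain ⟨hb3, hb4⟩ := hBdec b' hb'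
  have hnN : ((m.1 : G2) : A4) ∈ S4.Nbar :=
    (Subgroup.mem_inf.1 (Subgroup.mem_subgroupOf.1 ((SetLike.ext_iff.1 hN m.1).1 m.2))).1
  have hnl := hasLift_Nbar hs hcard htop hπ hι hιc hι0 hι1 hnN
  refine HasLift.mul ?_ hb3 fun y _ => hb4 _ (hrg ▸ ⟨y, rfl⟩)
  refine HasLift.mul hb1 hnl fun y hy => ?_
  -- the inverse of a normalising element normalises
  obtain ⟨e, he⟩ : (b : G2)⁻¹ ∈ Submonoid.powers b := by
    rw [mem_powers_iff_mem_zpowers]
    exact inv_mem (Subgroup.mem_zpowers b)
  have hpow : ∀ e, ∀ z ∈ (UG : Subgroup G2), b ^ e * z * (b ^ e)⁻¹ ∈ UG := fun e => by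
    induction e with
    | zero => simp
    | succ e ih =>
      intro z hz
      have := ih _ (hb2 z hz)
      rw [pow_succ]
      simpa [mul_assoc] using this
  have h3 := hpow e _ hy
  rw [show b ^ e = b⁻¹ from he] at h3
  simpa [mul_assoc] using h3

end Ext

/-- A stem extension with kernel a four-group. -/
theorem exists_stem_four :
    ∃ (W : Type) (_ : Group W) (_ : Finite W) (σ : W →* G2),
      Cfsg.IsStemExtension σ ∧ Nonempty (σ.ker ≃* Multiplicative (ZMod 2 × ZMod 2)) := by
  obtain ⟨hwf, hp, hn, hc⟩ := pc38_data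
  obtain ⟨S, iS, fS, s, hs', hcard, htop⟩ := exists_model pc38 hwf hp hc 38 (by omega)
  have hcut : cut pc38 38 = pc38 := by rw [cut, ← hn]
  rw [hcut] at hs'
  obtain ⟨f, hf⟩ := exists_hom_of_sat hwf hp hs' (by rw [hn, htop, Subgroup.card_top, hcard]) sat_t38
  have hall : ∀ x : S, x ∈ initGroup s pc38.n := fun x => by rw [hn, htop]; exact Subgroup.mem_top x
  let π : S →* G2 := f.comp ((MonoidHom.id S).codRestrict _ hall)
  have hπ : ∀ i < 38, π (s i) = t38 i := fun i hi => hf i (hn ▸ hi)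
  obtain ⟨ι, hιi, hιr, hιc, hι0, hι1⟩ := exists_iota hs' hcard htop hπ
  refine exists_stem_of_stable (range_eq hs' hcard htop hπ) odd_index ι hιi hιr hιc
    (by decide) perfectG
    (fun g => hasLift_all hs' hcard htop hπ hιr hιc hι0 hι1 g) ?_
  intro Q _ μ hμ
  have hk : ((List.range 2).all fun t =>
      ((killTab.getD t []).all fun e => Nat.blt e.1 38 && Nat.ble e.2 e.1) &&
        decide (∀ i ∈ List.range 38, ((killTab.getD t []).flatMap fun e =>
          bif Nat.beq e.1 e.2 then pc38.powWord e.1 else pc38.cjWord e.1 e.2 ++ [e.2]).count i % 2 =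
            if i = t then 1 else 0) &&
        ((killTab.getD t []).flatMap fun e =>
          bif Nat.beq e.1 e.2 then pc38.powWord e.1 else pc38.cjWord e.1 e.2 ++ [e.2]).all (Nat.blt · 38)) = true := by
    decide +kernel
  simp only [List.all_eq_true, List.mem_range, Bool.and_eq_true, Nat.blt_eq, decide_eq_true_eq] at hk
  have hone : ∀ t < 2, μ (s t) = 1 := by
    intro t ht
    obtain ⟨⟨hval, hcount⟩, hbd⟩ := hk t ht
    set L := (killTab.getD t []).flatMap fun e =>
      bif Nat.beq e.1 e.2 then pc38.powWord e.1 else pc38.cjWord e.1 e.2 ++ [e.2] with hL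
    have h1 : (L.map fun i => μ (s i)).prod = 1 := by
      rw [hL, List.map_flatMap, List.flatMap_def, List.prod_flatten, List.map_map]
      refine List.prod_eq_one fun z hz => ?_
      obtain ⟨e, he, rfl⟩ := List.mem_map.1 hz
      obtain ⟨he1, he2⟩ := hval e he
      simp only [Function.comp_apply]
      have he2' : e.2 ≤ e.1 := Nat.le_of_ble_eq_true he2
      by_cases hee : e.1 = e.2
      · rw [show Nat.beq e.1 e.2 = true from Nat.beq_eq.symm ▸ hee, cond_true]
        show evalW (fun i => μ (s i)) (pc38.powWord e.1) = 1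
        rw [← map_evalW, ← hs'.1 e.1 (by omega), hp, map_pow, pow_two, hμ]
      · rw [show Nat.beq e.1 e.2 = false from Bool.eq_false_iff.2 fun h => hee (Nat.eq_of_beq_eq_true h),
          cond_false]
        show evalW (fun i => μ (s i)) (pc38.cjWord e.1 e.2 ++ [e.2]) = 1
        rw [evalW_append, evalW_cons, evalW_nil, mul_one, ← map_evalW]
        have h := congrArg μ (hs'.2 e.1 (by omega) e.2 (by omega))
        rw [map_mul, map_mul, mul_comm (μ (evalW s _))] at h
        rw [← mul_left_cancel h, hμ]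
    have h2 : (L.map fun i => μ (s i)).prod = ∏ i ∈ Finset.range 38, μ (s i) ^ L.count i := by
      clear h1 hcount hL
      revert hbd
      generalize L = M
      intro hbd
      induction M with
      | nil => simp
      | cons x L ih =>
        rw [List.map_cons, List.prod_cons, ih fun y hy => hbd y (List.mem_cons_of_mem _ hy)]
        have hone : ∀ i, μ (s i) ^ (x :: L).count i = (if x = i then μ (s i) else 1) * μ (s i) ^ L.count i := by
          intro i
          rw [List.count_cons]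
          by_cases hx : x = i <;> simp [hx, pow_succ, mul_comm]
        rw [Finset.prod_congr rfl fun i _ => hone i, Finset.prod_mul_distrib, Finset.prod_ite_eq,
          if_pos (Finset.mem_range.2 (hbd x List.mem_cons_self))]
    rw [h1] at h2
    have h3 : ∀ i ∈ Finset.range 38, μ (s i) ^ L.count i = if i = t then μ (s i) else 1 := fun i hi => by
      rw [← Nat.div_add_mod (L.count i) 2, pow_add, pow_mul, pow_two, hμ, one_pow, one_mul,
        hcount i (Finset.mem_range.1 hi)]
      split_ifs <;> simp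
    rw [Finset.prod_congr rfl h3, Finset.prod_ite_eq', if_pos (Finset.mem_range.2 (by omega))] at h2
    exact h2.symm
  intro a
  obtain ⟨⟨x, y⟩, rfl⟩ : ∃ p, Multiplicative.ofAdd p = a := ⟨a.toAdd, rfl⟩
  rw [decomp_pair x y, map_mul, map_mul, map_pow, map_pow, map_pow, map_pow, hι0, hι1, hone 0 (by omega),
    hone 1 (by omega)]
  simp

end Cfsg.Agent.TwE6Two
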