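import Cfsg.Agent.TwE6Two.CheckGen
import Cfsg.Agent.TwE6Two.Check72
import Cfsg.Agent.TwE6Two.CheckConj
import Cfsg.Agent.TwE6Two.CheckSub
import Cfsg.Agent.TwE6Two.CheckSig
import Cfsg.Agent.ChevTw.TwE6Diag
import Cfsg.Agent.ChevTw.TwE6Thms
import Cfsg.Agent.ChevTw.TwTorus
import Cfsg.Agent.EInvol.E6
import Cfsg.Agent.GFour25.Basic

/-!
# The Sylow 2-subgroup of 2E6(2) and the maps conjugating it (owner: helper57)
-/

set_option autoImplicit false
set_option maxRecDepth 100000

namespace Cfsg.Agent.TwE6Two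

open Cfsg.Lie Cfsg.Agent.SchurCert Cfsg.Agent.ChevGrp Cfsg.Agent.ChevTw Cfsg.Agent.GFour25

/-- The ambient group. -/
abbrev A4 : Type := GL chevE6.Idx F4

/-- The twisted group. -/
abbrev Gtw : Subgroup A4 := twistedE6 F4 2

theorem hK4 : Fintype.card F4 = 2 ^ 2 := card_F4

theorem hq2 : IsPrimePow 2 := Nat.prime_two.isPrimePow

local instance instCharTwoF4 : CharP F4 2 := CharTwo.of_one_ne_zero_of_two_eq_zero one_ne_zero (two_eq_zero card_F4)

/-- The rules. -/
theorem rulesF : Rules chevE6 F4 := rulesE6 F4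

/-- The system of root elements. -/
noncomputable abbrev S4 : Sys chevE6 F4 A4 := glSys rulesF

theorem goodE6 : EInvol.Good chevE6 Chev.lenCertE6.len := EInvol.E6.good

theorem rootE6 : RootTable chevE6 Chev.lenCertE6.len := goodE6.root

/-- The twist. -/
noncomputable abbrev T4 : Twist S4 := twistE6 hq2 hK4

/-- The orbits. -/
noncomputable abbrev O4 : Orbits T4 (Fin twE6.nOrb) := orbE6 hq2 hK4

/-- The twisted group with its generators. -/
noncomputable abbrev W4 : TwGroup O4 := grpE6 hq2 hK4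

/-- The primitive element. -/
def om : F4 := ⟨false, true⟩

/-- The parameter of a letter. -/
def lval (l : ℕ) : F4 := bif lbit l then om else 1

/-- The value of a pair of bits. -/
def pval (p : Bool × Bool) : F4 := ⟨p.1, p.2⟩

/-- The letters. -/
noncomputable def s72 (l : ℕ) : A4 := S4.x (lroot l) (lval l)

theorem paramBits_val (b : Bool) (e : ℕ) : pval (paramBits b e) = (bif b then om else 1) * om ^ e := by
  have h3 : om ^ 3 = (1 : F4) := by decide
  have hp : ∀ n, om ^ n = om ^ (n % 3) := fun n => by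
    conv_lhs => rw [← Nat.div_add_mod n 3, pow_add, pow_mul, h3, one_pow, one_mul]
  have key : ∀ r < 3, ∀ b : Bool,
      pval (match (r + (bif b then 1 else 0)) % 3 with
        | 0 => (true, false)
        | 1 => (false, true)
        | _ => (true, true)) = (bif b then om else 1) * om ^ r := by decide
  rw [hp e, ← key (e % 3) (Nat.mod_lt _ (by omega)) b]
  simp only [paramBits, Nat.mod_add_mod]
  rfl

theorem two_lt_nroots {r : ℕ} (h : chevE6.IsPosRoot r) : r < 72 := h.1

theorem lroot_pos {l : ℕ} (hl : l < 72) : chevE6.IsPosRoot (lroot l) := by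
  have h := ok72_true
  simp only [ok72, Bool.and_eq_true, List.all_eq_true, List.mem_range] at h
  exact of_decide_eq_true (h.1.2 l hl).1.1

theorem letterOf_spec {r : ℕ} (hr : chevE6.IsPosRoot r) (b : Bool) :
    letterOf r b < 72 ∧ lroot (letterOf r b) = r ∧ lbit (letterOf r b) = b := by
  have h := ok72_true
  simp only [ok72, Bool.and_eq_true, List.all_eq_true, List.mem_range, Bool.or_eq_true, Nat.blt_eq] at h
  have hlt : letterOf r b < 72 := by
    have h' := (h.2 r (two_lt_nroots hr)).resolve_left (by simp [hr])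
    cases b
    · exact h'.1
    · exact h'.2
  refine ⟨hlt, ?_⟩
  have hlen : letterOf r b < (List.range 72).length := by simpa using hlt
  have e := List.findIdx_getElem (p := fun l => Nat.beq (lroot l) r && (lbit l == b))
    (xs := List.range 72) (w := hlen)
  erw [List.getElem_range] at e
  simp only [Bool.and_eq_true, beq_iff_eq] at e
  exact ⟨Nat.eq_of_beq_eq_true e.1, e.2⟩

theorem lettersOf_val {r : ℕ} (hr : chevE6.IsPosRoot r) (p : Bool × Bool) :
    evalW s72 (lettersOf r p) = S4.x r (pval p) := by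
  obtain ⟨-, h1, h2⟩ := letterOf_spec hr true
  obtain ⟨-, g1, g2⟩ := letterOf_spec hr false
  have e1 : s72 (letterOf r true) = S4.x r om := by simp [s72, lval, h1, h2]
  have e0 : s72 (letterOf r false) = S4.x r 1 := by simp [s72, lval, g1, g2]
  have hlt : r < chevE6.nroots := hr.1
  have hz : S4.x r 0 = 1 := by
    have := S4.x_add r hlt 0 0
    rw [add_zero] at this
    exact mul_eq_left.1 this
  obtain ⟨a, b⟩ := p
  cases a <;> cases b <;> simp only [lettersOf, cond_true, cond_false, List.append_nil, List.nil_append,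
    List.cons_append, evalW_nil, evalW_cons, mul_one, e1, e0, S4.x_add r hlt]
  · exact hz.symm
  · rfl
  · rfl
  · congr 1

theorem lettersOf_lt {r : ℕ} (hr : chevE6.IsPosRoot r) (p : Bool × Bool) : ∀ x ∈ lettersOf r p, x < 72 := by
  obtain ⟨a, b⟩ := p
  cases a <;> cases b <;> simp [lettersOf, (letterOf_spec hr true).1, (letterOf_spec hr false).1]

theorem x_self (r : ℕ) (hr : r < chevE6.nroots) (t : F4) : S4.x r t * S4.x r t = 1 := by
  rw [S4.x_add r hr, add_self]
  have := S4.x_add r hr 0 0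
  rw [add_zero] at this
  exact mul_eq_left.1 this

theorem sat72 : SatPC pc72 s72 := by
  have h := ok72_true
  simp only [ok72, Bool.and_eq_true, List.all_eq_true, List.mem_range] at h
  obtain ⟨⟨⟨⟨-, hp⟩, hn⟩, hJ⟩, -⟩ := h
  rw [Nat.eq_of_beq_eq_true hn |>.symm] at hJ
  refine ⟨fun j hj => ?_, fun J hJn I hI => ?_⟩
  · have he : pc72.powWord j = [] := List.isEmpty_iff.1 (hJ j hj).1.2
    rw [he, Nat.eq_of_beq_eq_true hp, pow_two, evalW_nil]
    exact x_self _ (lroot_pos (by rw [← Nat.eq_of_beq_eq_true hn]; exact hj)).1 _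
  · have hJ72 : J < 72 := by rw [← Nat.eq_of_beq_eq_true hn]; exact hJn
    have hI72 : I < 72 := hI.trans hJ72
    have hr := lroot_pos hJ72
    have hs := lroot_pos hI72
    have h' := (hJ J hJn).2 I hI
    by_cases e : lroot J = lroot I
    · rw [show Nat.beq (lroot J) (lroot I) = true from Nat.beq_eq.symm ▸ e, cond_true] at h'
      rw [of_decide_eq_true h', evalW_cons, evalW_nil, mul_one]
      simp only [s72, e, S4.x_add _ hs.1, add_comm]
    · rw [show Nat.beq (lroot J) (lroot I) = false by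
        cases hb : Nat.beq (lroot J) (lroot I)
        · rfl
        · exact absurd (Nat.eq_of_beq_eq_true hb) e, cond_false, Bool.and_eq_true] at h'
      obtain ⟨hne, hm⟩ := h'
      have hne' : lroot I ≠ chevE6.neg (lroot J) := by
        intro e2
        rw [show Nat.beq (lroot I) (chevE6.neg (lroot J)) = true from Nat.beq_eq.symm ▸ e2] at hne
        simp at hne
      have hne2 : lroot J ≠ chevE6.neg (lroot I) := fun e2 => hne' (by
        rw [e2, rootE6.neg_neg_root hs.1])
      have key := S4.comm (lroot I) hs.1 (lroot J) hr.1 e hne2 (lval I) (lval J)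
      split at hm
      · next hc =>
        rw [of_decide_eq_true hm, evalW_cons, evalW_nil, mul_one]
        simp only [ChevalleyDatum.commWord, hc, List.map_nil, List.prod_nil, mul_one] at key
        exact key
      · next k c hc =>
        simp only [Bool.and_eq_true, Bool.not_eq_true', Bool.or_eq_true, beq_iff_eq, List.isEmpty_iff] at hm
        obtain ⟨⟨⟨⟨hc1, hk1⟩, hk2⟩, hk3⟩, hw⟩ := hm
        have hkpos : chevE6.IsPosRoot k := (rootE6.posSet_closed.closed _ hs _ hr e (k, c, 1, 1)
          (by rw [hc]; simp))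
        rw [of_decide_eq_true hw, evalW_cons, lettersOf_val hkpos, paramBits_val]
        simp only [ChevalleyDatum.commWord, hc, List.map_cons, List.map_nil, List.prod_cons,
          List.prod_nil, mul_one, pow_one] at key
        have hcF : (c : F4) = 1 := by
          rcases hc1 with rfl | rfl
          · simp
          · simp [CharTwo.neg_eq]
        rw [hcF, one_mul, CharTwo.neg_eq] at key
        have hv : (bif lbit J then om else 1) * om ^ (bif lbit I then 1 else 0) = lval I * lval J := by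
          simp only [lval]
          cases lbit I <;> cases lbit J <;> simp [mul_comm]
        rw [hv]
        have hcm : Commute (S4.x k (lval I * lval J)) (S4.x (lroot J) (lval J)) :=
          x_commute S4 hkpos.1 hr.1
            (fun e2 => by rw [show Nat.beq (lroot J) k = true from Nat.beq_eq.symm ▸ e2] at hk1; simp at hk1)
            (fun e2 => by
              rw [show Nat.beq (lroot J) (chevE6.neg k) = true from Nat.beq_eq.symm ▸ e2] at hk2
              simp at hk2)
            hk3 _ _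
        show s72 J * s72 I = s72 I * _ * s72 J
        simp only [s72]
        rw [key, mul_assoc, mul_assoc]
        exact congrArg _ hcm.symm.eq
      · exact absurd hm (by simp)

theorem pc72_data : pc72.wf = true ∧ pc72.p = 2 ∧ pc72.n = 72 := by
  have h := ok72_true
  simp only [ok72, Bool.and_eq_true] at h
  exact ⟨h.1.1.1.1, Nat.eq_of_beq_eq_true h.1.1.1.2, Nat.eq_of_beq_eq_true h.1.1.2⟩

theorem pc36_data : pc36.wf = true ∧ pc36.p = 2 ∧ pc36.n = 36 := by
  have h := okGen_true
  simp only [okGen, Bool.and_eq_true] at h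
  exact ⟨h.1.1.1, Nat.eq_of_beq_eq_true h.1.1.2, Nat.eq_of_beq_eq_true h.1.2⟩

instance instFiniteA4 : Finite A4 := inferInstance

/-- The letters generate the unipotent group, of order `2 ^ 72`. -/
theorem initGroup72 : initGroup s72 72 = S4.Ubar ∧ Nat.card ↥S4.Ubar = 2 ^ 72 := by
  have hcard : Nat.card ↥S4.Ubar = 2 ^ 72 := by
    rw [Sys.Ubar, S4.card_US rootE6 rootE6.posSet_closed, Nat.card_eq_fintype_card, card_F4]
    have hset : posSet chevE6 = ↑((Finset.range 72).filter fun r => chevE6.IsPosRoot r) := by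
      ext r
      simp only [posSet, Set.mem_ofPred_eq, Finset.coe_filter, Finset.mem_range]
      exact ⟨fun h => ⟨h.1, h⟩, fun h => h.2⟩
    rw [hset, Nat.card_coe_set_eq, Set.ncard_coe_finset,
      show ((Finset.range 72).filter fun r => chevE6.IsPosRoot r).card = 36 by decide +kernel]
    norm_num
  refine ⟨le_antisymm ?_ ?_, hcard⟩
  · rw [initGroup, Subgroup.closure_le]
    rintro _ ⟨l, hl, rfl⟩
    exact S4.x_mem_US (lroot_pos hl) _
  · rw [Sys.Ubar, Sys.US, Subgroup.closure_le]
    rintro _ ⟨r, hr, t, rfl⟩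
    have h := evalW_mem_initGroup s72 (lettersOf r (t.re, t.im)) (lettersOf_lt hr _)
    rw [lettersOf_val hr] at h
    exact h

theorem s72_not_mem {L : ℕ} (hL : L < 72) : s72 L ∉ initGroup s72 L := by
  obtain ⟨hwf, hp, hn⟩ := pc72_data
  obtain ⟨hgen, hcard⟩ := initGroup72
  intro hmem
  have hle : ∀ k, L < k → k ≤ 72 → Nat.card (initGroup s72 k) ≤ 2 ^ (k - 1) := by
    intro k
    induction k with
    | zero => intro h; omega
    | succ k ih =>
      intro hk hk'
      rcases Nat.lt_or_eq_of_le (Nat.lt_succ_iff.1 hk) with h | h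
      · have h1 := card_initGroup_succ_le hwf sat72 (by omega) (k := k) (by omega)
        have h2 := ih h (by omega)
        rw [hp] at h1
        refine h1.trans (le_trans (Nat.mul_le_mul_left 2 h2) ?_)
        rw [← pow_succ', show k - 1 + 1 = k by omega, Nat.add_sub_cancel]
      · subst h
        have : initGroup s72 (L + 1) ≤ initGroup s72 L := by
          rw [initGroup, Subgroup.closure_le]
          rintro _ ⟨i, hi, rfl⟩
          rcases Nat.lt_or_eq_of_le (Nat.lt_succ_iff.1 hi) with h | rfl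
          · exact mem_initGroup s72 h
          · exact hmem
        refine (Subgroup.card_le_of_le this).trans ?_
        have h2 := card_initGroup_le hwf sat72 (by omega) (k := L) (by omega)
        rwa [hp] at h2
  have := hle 72 hL le_rfl
  rw [hgen, hcard] at this
  norm_num at this

/-- A generator. -/
noncomputable def gel (i : ℕ) : A4 := evalW s72 (gw i)

theorem evalW_flat (f : ℕ → List ℕ) (W : List ℕ) :
    evalW s72 (W.flatMap f) = evalW (fun i => evalW s72 (f i)) W :=
  evalW_flatMap s72 f W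

theorem gw_lt {i : ℕ} (hi : i < 36) : ∀ l ∈ gw i, l < 72 := by
  have h := okGen_true
  simp only [okGen, okGenAt, Bool.and_eq_true, List.all_eq_true, List.mem_range, Nat.blt_eq, Nat.ble_eq] at h
  exact fun l hl => lt_of_le_of_lt ((h.2 i hi).1.1.1.2 l hl) (h.2 i hi).1.1.1.1

theorem sat36 : SatPC pc36 gel := by
  obtain ⟨-, hp, hn⟩ := pc36_data
  obtain ⟨hwf72, -, -⟩ := pc72_data
  have h := okGen_true
  simp only [okGen, okGenAt, Bool.and_eq_true, List.all_eq_true, List.mem_range] at h
  refine ⟨fun j hj => ?_, fun j hj i hi => ?_⟩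
  · have e := evalW_eq_of_sameNF hwf72 sat72 ((h.2 j (hn ▸ hj)).1.2)
    rw [gwW, gwW, evalW_flat, evalW_flat] at e
    rw [hp, pow_two, show gel = fun i => evalW s72 (gw i) from rfl]
    simpa using e
  · have e := evalW_eq_of_sameNF hwf72 sat72 (((h.2 j (hn ▸ hj)).2 i hi).2)
    rw [gwW, gwW, evalW_flat, evalW_flat, evalW_append] at e
    rw [show gel = fun i => evalW s72 (gw i) from rfl]
    simpa using e

/-- The unipotent group of the twisted group. -/
noncomputable abbrev U4 : Subgroup A4 := S4.Ubar ⊓ Gtw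

theorem gel_mem_U {i : ℕ} (hi : i < 36) : gel i ∈ U4 := by
  have hU : gel i ∈ S4.Ubar := by
    rw [← initGroup72.1]
    exact evalW_mem_initGroup s72 _ (gw_lt hi)
  have hlon := twE6_ok.isLongest (T := T4) (fun _ => rfl) rfl
  refine (W4.fixUbar_eq rulesF rootE6 (O4.comm_word rootE6 _) (hlon.invSet_eq rootE6)).2 ⟨hU, ?_⟩
  have h := okSig_true
  simp only [okSig, Bool.and_eq_true, List.all_eq_true, List.mem_range] at h
  obtain ⟨hpos, hsame⟩ := h i hi
  have e := evalW_eq_of_sameNF pc72_data.1 sat72 hsame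
  rw [evalW_flat] at e
  have hsig : ∀ W : List ℕ, (∀ l ∈ W, l < 72 ∧ chevE6.IsPosRoot (twE6.root (lroot l))) →
      evalW s72 W ∈ S4.Gbar ∧ T4.sig (evalW s72 W) = evalW (fun l => evalW s72 (sigLetter l)) W := by
    intro W
    induction W with
    | nil => intro _; exact ⟨one_mem _, T4.sig_one⟩
    | cons l W ih =>
      intro hW
      obtain ⟨h1, h2⟩ := ih fun x hx => hW x (List.mem_cons_of_mem _ hx)
      obtain ⟨hl, hlp⟩ := hW l List.mem_cons_self
      have hlr := (lroot_pos hl).1
      have hg : s72 l ∈ S4.Gbar := S4.x_mem_Gbar hlr _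
      rw [evalW_cons, evalW_cons]
      refine ⟨mul_mem hg h1, ?_⟩
      rw [T4.sig_mul _ hg _ h1, h2]
      congr 1
      show T4.sig (S4.x (lroot l) (lval l)) = _
      rw [T4.sig_x _ hlr, sigLetter, lettersOf_val hlp, paramBits_val]
      show S4.x (twE6.root (lroot l)) _ = _
      congr 1
      show (symE6.sgn (lroot l) : F4) * frobE6 hq2 hK4 (lval l) = _
      rw [frobE6_apply]
      have hs : (symE6.sgn (lroot l) : F4) = 1 := by
        have := symE6.sgn_mul_self (lroot l)
        rcases Int.eq_one_or_neg_one_of_mul_eq_one this with h' | h' <;> simp [h', CharTwo.neg_eq]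
      rw [hs, one_mul]
      simp only [lval]
      cases lbit l <;> simp [pow_two]
  have h2 := (hsig (gw i) fun l hl => ⟨gw_lt hi l hl, of_decide_eq_true (hpos l hl)⟩).2
  rw [show gel i = evalW s72 (gw i) from rfl, h2]
  exact e

theorem gel_not_mem {j : ℕ} (hj : j < 36) : gel j ∉ initGroup gel j := by
  have h := okGen_true
  simp only [okGen, okGenAt, Bool.and_eq_true, List.all_eq_true, List.mem_range, Nat.blt_eq, Nat.ble_eq] at h
  obtain ⟨⟨⟨⟨hL, hle⟩, hcount⟩, -⟩, hlow⟩ := h.2 j hj
  set L := topTab.getD j 0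
  intro hmem
  have hsub : initGroup gel j ≤ initGroup s72 L := by
    rw [initGroup, Subgroup.closure_le]
    rintro _ ⟨i, hi, rfl⟩
    obtain ⟨hlt, -⟩ := hlow i hi
    obtain ⟨⟨⟨⟨-, hle'⟩, -⟩, -⟩, -⟩ := h.2 i (lt_trans hi hj)
    exact evalW_mem_initGroup s72 _ fun l hl => lt_of_le_of_lt (hle' l hl) hlt
  have hc : (gw j).count L = 1 := Nat.eq_of_beq_eq_true hcount
  obtain ⟨a, b, hab, hna⟩ : ∃ a b, gw j = a ++ L :: b ∧ L ∉ a := by
    obtain ⟨a, b, e, h⟩ := List.eq_append_cons_of_mem (List.count_pos_iff.1 (by rw [hc]; exact one_pos))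
    exact ⟨a, b, e, h⟩
  have hnb : L ∉ b := by
    intro hb
    rw [hab, List.count_append, List.count_cons_self, List.count_eq_zero.2 hna] at hc
    have := List.count_pos_iff.2 hb
    omega
  have hin : ∀ W : List ℕ, (∀ l ∈ W, l ∈ gw j) → L ∉ W → evalW s72 W ∈ initGroup s72 L := fun W hW hn =>
    evalW_mem_initGroup s72 _ fun l hl => lt_of_le_of_ne (hle l (hW l hl)) fun e => hn (e ▸ hl)
  have ha := hin a (fun l hl => by rw [hab]; exact List.mem_append_left _ hl) hna
  have hb := hin b (fun l hl => by rw [hab]; exact List.mem_append_right _ (List.mem_cons_of_mem _ hl)) hnb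
  have he := hsub hmem
  rw [gel, hab, evalW_append, evalW_cons, ← mul_assoc, Subgroup.mul_mem_cancel_right _ hb,
    Subgroup.mul_mem_cancel_left _ ha] at he
  exact s72_not_mem hL he

theorem card_U4 : Nat.card ↥U4 = 2 ^ 36 := by
  have h := thm_S1086 hq2 hK4
  rwa [posUnipotent_eq rulesF] at h

theorem initGroup36 : initGroup gel 36 = U4 := by
  have hle : initGroup gel 36 ≤ U4 := by
    rw [initGroup, Subgroup.closure_le]
    rintro _ ⟨i, hi, rfl⟩
    exact gel_mem_U hi
  obtain ⟨hwf, hp, hn⟩ := pc36_data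
  refine Subgroup.eq_of_le_of_card_ge hle ?_
  rw [card_U4, card_initGroup_eq hwf sat36 (by omega) (by rw [hp]; exact Nat.prime_two) (k := 36) (by omega)
    fun j hj => gel_not_mem hj, hp]

/-- The torus element. -/
noncomputable def hT : A4 := S4.hEl 42 om * S4.hEl 37 (om ^ 2)

theorem hT_mem : hT ∈ Gtw := by
  have hf := frobE6_apply hq2 hK4
  refine hEl_pair_mem S4 _ (fun r hr s hs t u => ?_) (fun t => t ^ 2) (by simp only [← hf, map_neg, map_one])
    (fun t => by simp only [← hf, map_neg, map_inv₀]) ?_ ?_ om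
  · obtain ⟨h1, h2, h3, h4, h5⟩ := commCrossE6 (42, 37) (by simp) r hr s hs
    exact x_commute S4 h4 h5 h1 h2 h3 t u
  · intro t
    have := word_mem_genSubgroup rulesF (W := e6Words F4 2) (w := [(42, t), (37, t ^ 2)])
      (Or.inr ⟨t, (42, 37), by simp [e6p3, e6p5], rfl⟩)
    simpa [S4, glSys, twistedE6] using this
  · intro t
    obtain ⟨-, -, n42, n37, -⟩ := negE6
    have := word_mem_genSubgroup rulesF (W := e6Words F4 2) (w := [(29, t), (34, t ^ 2)])
      (Or.inr ⟨t, (29, 34), by simp [e6m3, e6m5], rfl⟩)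
    simpa [S4, glSys, twistedE6, n42, n37] using this

/-- The lifts to be conjugated by: the torus element and the orbit Weyl elements. -/
noncomputable def cel (a : ℕ) : A4 := if a = 0 then hT else S4.nW (twE6.wJ chevE6 (orbOf a))

theorem simples : ∀ J : Fin twE6.nOrb, twE6.wJ chevE6 J ∈
    [[(⟨1, by decide⟩ : Fin chevE6.rank)], [⟨3, by decide⟩], [⟨2, by decide⟩, ⟨4, by decide⟩],
      [⟨0, by decide⟩, ⟨5, by decide⟩]] := by
  decide +kernel

theorem cel_mem (a : ℕ) : cel a ∈ Gtw := by
  unfold cel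
  split_ifs
  · exact hT_mem
  obtain ⟨n46, n39, n42, n37, n56, n36, s0, s1, s2, s3, s4, s5⟩ := negE6
  have hm1 : -((1 : F4))⁻¹ = 1 := by rw [inv_one, CharTwo.neg_eq]
  have gen1 : ∀ r, r ∈ [e6p2, e6m2, e6p4, e6m4] → S4.x r 1 ∈ Gtw := fun r hr => by
    have := word_mem_genSubgroup rulesF (W := e6Words F4 2) (w := [(r, 1)])
      (Or.inl ⟨1, one_pow 2, r, hr, rfl⟩)
    simpa [S4, glSys, twistedE6] using this
  have gen2 : ∀ rs, rs ∈ [(e6p1, e6p6), (e6m1, e6m6), (e6p3, e6p5), (e6m3, e6m5)] →
      S4.x rs.1 1 * S4.x rs.2 1 ∈ Gtw := fun rs hr => by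
    have := word_mem_genSubgroup rulesF (W := e6Words F4 2) (w := [(rs.1, 1), (rs.2, 1 ^ 2)])
      (Or.inr ⟨1, rs, hr, rfl⟩)
    simpa [S4, glSys, twistedE6] using this
  have pair : ∀ ab ∈ [(42, 37), (56, 36)], S4.x ab.1 1 * S4.x ab.2 1 ∈ Gtw →
      S4.x (chevE6.neg ab.1) 1 * S4.x (chevE6.neg ab.2) 1 ∈ Gtw → S4.nEl ab.1 1 * S4.nEl ab.2 1 ∈ Gtw := by
    intro ab hab h1 h2
    have hc : ∀ r ∈ [ab.1, chevE6.neg ab.1], ∀ s ∈ [ab.2, chevE6.neg ab.2], ∀ t u : F4,
        Commute (S4.x r t) (S4.x s u) := fun r hr s hs t u => by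
      obtain ⟨a1, a2, a3, a4, a5⟩ := commCrossE6 ab hab r hr s hs
      exact x_commute S4 a4 a5 a1 a2 a3 t u
    rw [nEl_pair S4 (hc _ (by simp) _ (by simp) _ _) (hc _ (by simp) _ (by simp) _ _)
      (hc _ (by simp) _ (by simp) _ _), hm1]
    exact mul_mem (mul_mem h1 h2) h1
  have one : ∀ r, r ∈ [e6p2, e6p4] → chevE6.neg r ∈ [e6m2, e6m4] → S4.nEl r 1 ∈ Gtw := fun r h1 h2 => by
    rw [Sys.nEl, hm1]
    refine mul_mem (mul_mem (gen1 r ?_) (gen1 _ ?_)) (gen1 r ?_) <;>
      simp only [List.mem_cons, List.not_mem_nil, or_false] at h1 h2 ⊢ <;> tauto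
  have hs := simples (orbOf a)
  simp only [List.mem_cons, List.not_mem_nil, or_false] at hs
  rcases hs with h | h | h | h <;> rw [h]
  · rw [show S4.nW [_] = S4.nEl (chevE6.simple (⟨1, by decide⟩ : Fin chevE6.rank).val) 1 from
      List.prod_singleton, show chevE6.simple (⟨1, by decide⟩ : Fin chevE6.rank).val = 46 from s1]
    exact one 46 (by simp [e6p2]) (by rw [n46]; simp [e6m2])
  · rw [show S4.nW [_] = S4.nEl (chevE6.simple (⟨3, by decide⟩ : Fin chevE6.rank).val) 1 from
      List.prod_singleton, show chevE6.simple (⟨3, by decide⟩ : Fin chevE6.rank).val = 39 from s3]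
    exact one 39 (by simp [e6p4]) (by rw [n39]; simp [e6m4])
  · rw [show S4.nW [_, _] = S4.nEl (chevE6.simple (⟨2, by decide⟩ : Fin chevE6.rank).val) 1 *
      S4.nEl (chevE6.simple (⟨4, by decide⟩ : Fin chevE6.rank).val) 1 from List.prod_pair,
      show chevE6.simple (⟨2, by decide⟩ : Fin chevE6.rank).val = 42 from s2,
      show chevE6.simple (⟨4, by decide⟩ : Fin chevE6.rank).val = 37 from s4]
    exact pair (42, 37) (by simp) (gen2 (e6p3, e6p5) (by simp))
      (by rw [n42, n37]; exact gen2 (e6m3, e6m5) (by simp))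
  · rw [show S4.nW [_, _] = S4.nEl (chevE6.simple (⟨0, by decide⟩ : Fin chevE6.rank).val) 1 *
      S4.nEl (chevE6.simple (⟨5, by decide⟩ : Fin chevE6.rank).val) 1 from List.prod_pair,
      show chevE6.simple (⟨0, by decide⟩ : Fin chevE6.rank).val = 56 from s0,
      show chevE6.simple (⟨5, by decide⟩ : Fin chevE6.rank).val = 36 from s5]
    exact pair (56, 36) (by simp) (gen2 (e6p1, e6p6) (by simp))
      (by rw [n56, n36]; exact gen2 (e6m1, e6m6) (by simp))

theorem cel_conj_letter {a l : ℕ} (hl : l < 72)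
    (hp : a ≠ 0 → chevE6.IsPosRoot (act chevE6 (twE6.wJ chevE6 (orbOf a)) (lroot l))) :
    cel a * s72 l * (cel a)⁻¹ = evalW s72 (conjLetter a l) := by
  have hpos := lroot_pos hl
  unfold cel conjLetter
  split_ifs with ha
  · subst ha
    rw [show Nat.beq 0 0 = true from rfl, cond_true, lettersOf_val hpos, paramBits_val]
    obtain ⟨-, -, -, -, -, -, -, -, s2, -, s4, -⟩ := negE6
    have hom : om ≠ 0 := by decide
    have h1 := S4.conjP_hI rulesF rootE6 ⟨2, by decide⟩ hom _ hpos.1
    have h2 := S4.conjP_hI rulesF rootE6 ⟨4, by decide⟩ (pow_ne_zero 2 hom) _ hpos.1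
    rw [show chevE6.simple (⟨2, by decide⟩ : Fin chevE6.rank).val = 42 from s2] at h1
    rw [show chevE6.simple (⟨4, by decide⟩ : Fin chevE6.rank).val = 37 from s4] at h2
    show hT * S4.x (lroot l) (lval l) * hT⁻¹ = _
    rw [hT, mul_inv_rev, show S4.hEl 42 om * S4.hEl 37 (om ^ 2) * S4.x (lroot l) (lval l) *
      ((S4.hEl 37 (om ^ 2))⁻¹ * (S4.hEl 42 om)⁻¹) = S4.hEl 42 om * (S4.hEl 37 (om ^ 2) *
        S4.x (lroot l) (lval l) * (S4.hEl 37 (om ^ 2))⁻¹) * (S4.hEl 42 om)⁻¹ by group, h2, h1]
    congr 1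
    have h3 : om ^ (3 : ℤ) = (1 : F4) := by decide
    rw [← mul_assoc, mul_comm (_ * _) (lval l), ← zpow_natCast om 2, ← zpow_mul, ← zpow_add₀ hom,
      ← zpow_natCast om (hExp (lroot l))]
    congr 1
    have he : (hExp (lroot l) : ℤ) = (chevE6.cartan 2 (lroot l) + 2 * chevE6.cartan 4 (lroot l)) % 3 :=
      Int.toNat_of_nonneg (Int.emod_nonneg _ (by norm_num))
    rw [he]
    generalize chevE6.cartan 2 (lroot l) + 2 * chevE6.cartan 4 (lroot l) = z at *
    conv_lhs => rw [show z = 3 * (z / 3) + z % 3 from (Int.mul_ediv_add_emod z 3).symm, zpow_add₀ hom,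
      zpow_mul, h3, one_zpow, one_mul]
  · rw [show Nat.beq a 0 = false by
      cases hb : Nat.beq a 0
      · rfl
      · exact absurd (Nat.eq_of_beq_eq_true hb) ha, cond_false, lettersOf_val (hp ha), paramBits_val,
      pow_zero, mul_one]
    exact EInvol.nW_conj rulesF goodE6 _ _ hpos.1 _

/-- The conjugates of the generators. -/
theorem cel_conj {a : ℕ} (ha : a < 5) {i : ℕ} (hi : i ∈ subTab.getD a []) :
    i < 36 ∧ (∀ x ∈ (wTab.getD a []).getD i [], x < 36) ∧
      cel a * gel i * (cel a)⁻¹ = evalW gel ((wTab.getD a []).getD i []) := by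
  have h := okConj_true
  simp only [okConj, Bool.and_eq_true, List.all_eq_true, List.mem_range] at h
  obtain ⟨⟨⟨hi', hpos⟩, hbel⟩, hsame⟩ := h a ha i hi
  have hi36 : i < 36 := by simpa using hi'
  refine ⟨hi36, mem_below hbel, ?_⟩
  have e := evalW_eq_of_sameNF pc72_data.1 sat72 hsame
  rw [gwW, evalW_flat, evalW_flat] at e
  have key : cel a * evalW s72 (gw i) * (cel a)⁻¹ = evalW (fun l => evalW s72 (conjLetter a l)) (gw i) := by
    have := map_evalW (MulAut.conj (cel a)).toMonoidHom s72 (gw i)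
    simp only [MulEquiv.coe_toMonoidHom, MulAut.conj_apply] at this
    rw [this]
    unfold evalW
    refine congrArg List.prod (List.map_congr_left fun l hl => ?_)
    refine cel_conj_letter (gw_lt hi36 l hl) fun hne => ?_
    rcases Bool.or_eq_true_iff.1 (hpos l hl) with h0 | h0
    · exact absurd (Nat.eq_of_beq_eq_true h0) hne
    · exact of_decide_eq_true h0
  rw [gel, key, e]
  rfl

end Cfsg.Agent.TwE6Two
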