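import Cfsg.Agent.TwE6Two.Stable
import Cfsg.Agent.TwE6Two.LinRows1
import Cfsg.Agent.TwE6Two.LinRows2
import Cfsg.Agent.TwE6Two.LinRows3
import Cfsg.Agent.TwE6Two.LinTargets1
import Cfsg.Agent.TwE6Two.LinTargets2
import Cfsg.Agent.TwE6Two.LinTargets3
import Cfsg.Agent.TwE6Two.LinTargets4
import Cfsg.Agent.SchurBound.Bound

/-!
# The 2-part of the multiplier of 2E6(2) has order at most four (owner: helper57)

In a stem extension with kernel of exponent dividing four, corrected lifts of the generators of the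
Sylow 2-subgroup satisfy the relations up to a four-group; modulo it the extension splits over the
Sylow subgroup, hence is trivial.
-/

set_option autoImplicit false
set_option maxRecDepth 100000

namespace Cfsg.Agent.TwE6Two

open Cfsg.Lie Cfsg.Agent.SchurCert
open scoped commutatorElement

attribute [local instance] instCharTwoF4

/-- The relations in the order of their variables. -/
def relList : List (ℕ × ℕ) :=
  (List.range 36).flatMap fun j => (j, j) :: (List.range j).map fun i => (j, i)

/-- The conjugations in the order of their variables. -/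
def conjList : List (ℕ × ℕ) :=
  (List.range 5).flatMap fun a => (subTab.getD a []).map fun i => (a, i)

/-- The variables are decoded by the lists. -/
def okVars : Bool :=
  decide ((relList.map fun p => relVar p.1 p.2) = List.range 666) &&
    decide ((conjList.map fun p => vv p.1 p.2) = (List.range conjList.length).map (666 + ·)) &&
    relList.all fun p => ((relSides p.1 p.2).1 ++ (relSides p.1 p.2).2).all (Nat.blt · 36)

set_option maxHeartbeats 0 in
theorem okVars_true : okVars = true := by decide +kernel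

/-- A list whose values are consecutive decodes them. -/
theorem getD_of_map_eq {α : Type} {l : List α} {v : α → ℕ} {m n : ℕ} {d : α}
    (h : l.map v = (List.range n).map (m + ·)) {p : α} (hp : p ∈ l) :
    m ≤ v p ∧ v p < m + n ∧ l.getD (v p - m) d = p := by
  obtain ⟨k, hk, rfl⟩ := List.mem_iff_getElem.1 hp
  have hn : l.length = n := by simpa using congrArg List.length h
  have hv : (l.map v)[k]'(by simpa using hk) = ((List.range n).map (m + ·))[k]'(by simp; omega) := by
    simp only [h]
  simp only [List.getElem_map, List.getElem_range] at hv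
  refine ⟨by omega, by omega, ?_⟩
  rw [hv, Nat.add_sub_cancel_left, List.getD_eq_getElem _ _ hk]

theorem okVars_spec :
    ((∀ p ∈ relList, relVar p.1 p.2 < 666 ∧ relList.getD (relVar p.1 p.2) (0, 0) = p) ∧
      ∀ p ∈ conjList, 666 ≤ vv p.1 p.2 ∧ conjList.getD (vv p.1 p.2 - 666) (0, 0) = p) ∧
    ∀ j < 36, ∀ i < j + 1, (j, i) ∈ relList ∧
      ∀ x ∈ (relSides j i).1 ++ (relSides j i).2, x < 36 := by
  have h := okVars_true
  simp only [okVars, Bool.and_eq_true, decide_eq_true_eq, List.all_eq_true, Nat.blt_eq] at h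
  obtain ⟨⟨h1, h2⟩, h3⟩ := h
  have h1' : (relList.map fun p => relVar p.1 p.2) = (List.range 666).map (0 + ·) := by
    rw [h1]; simp
  refine ⟨⟨fun p hp => ?_, fun p hp => ?_⟩, fun j hj i hi => ?_⟩
  · obtain ⟨-, ha, hb⟩ := getD_of_map_eq (d := ((0, 0) : ℕ × ℕ)) h1' hp
    simp only [Nat.zero_add, Nat.sub_zero] at ha hb
    exact ⟨ha, hb⟩
  · obtain ⟨ha, -, hb⟩ := getD_of_map_eq (d := ((0, 0) : ℕ × ℕ)) h2 hp
    exact ⟨ha, hb⟩
  · have hm : (j, i) ∈ relList := by
      simp only [relList, List.mem_flatMap, List.mem_range, List.mem_cons, List.mem_map, Prod.mk.injEq]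
      refine ⟨j, hj, ?_⟩
      rcases Nat.lt_succ_iff_lt_or_eq.1 hi with h | h
      · exact Or.inr ⟨i, h, rfl, rfl⟩
      · exact Or.inl ⟨rfl, h⟩
    exact ⟨hm, h3 _ hm⟩

theorem okRows_all {k : ℕ} (hk : k < 648) : ∃ lo hi, okRows lo hi = true ∧ lo ≤ k ∧ k < hi := by
  by_cases h1 : k < 216
  · exact ⟨0, 216, okRows1_true, Nat.zero_le _, h1⟩
  by_cases h2 : k < 432
  · exact ⟨216, 432, okRows2_true, not_lt.1 h1, h2⟩
  exact ⟨432, 648, okRows3_true, not_lt.1 h2, hk⟩

theorem okTargets_all {j : ℕ} (hj : j < 36) : okTargets j = true := by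
  have key : ∀ {a b : ℕ}, ((List.range b).all fun j => Nat.blt j a || okTargets j) = true →
      a ≤ j → j < b → okTargets j = true := by
    intro a b h h1 h2
    simp only [List.all_eq_true, List.mem_range, Bool.or_eq_true, Nat.blt_eq] at h
    exact (h j h2).resolve_left (not_lt.2 h1)
  by_cases h1 : j < 16
  · exact key okTargets1_true (Nat.zero_le _) h1
  by_cases h2 : j < 24
  · exact key okTargets2_true (not_lt.1 h1) h2
  by_cases h3 : j < 30
  · exact key okTargets3_true (not_lt.1 h2) h3
  exact key okTargets4_true (not_lt.1 h3) hj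

/-- A stem extension with kernel of exponent dividing four has kernel a quotient of a four-group. -/
theorem bound_core {Δ : Type} [Group Δ] [Finite Δ] {τ : Δ →* G2} (hτ : Cfsg.IsStemExtension τ)
    {A : Type} [CommGroup A] (zp : A →* Δ) (zinj' : Function.Injective zp) (hzr : zp.range = τ.ker)
    (hA : ∀ a : A, a ^ 4 = 1) : Nat.card ↥τ.ker ≤ 4 ∧ ∀ z ∈ τ.ker, z ^ 2 = 1 := by
  classical
  have zk : ∀ a, zp a ∈ τ.ker := fun a => hzr ▸ ⟨a, rfl⟩
  have zc : ∀ (a : A) (x : Δ), zp a * x = x * zp a := fun a x =>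
    (Subgroup.mem_center_iff.1 (hτ.2.1 (zk a)) x).symm
  have zinj : ∀ a b : A, zp a = zp b → a = b := fun a b h => zinj' h
  have h4 : ∀ z ∈ τ.ker, z ^ 4 = 1 := fun z hz => by
    rw [← hzr] at hz
    obtain ⟨a, rfl⟩ := hz
    rw [← map_pow, hA, map_one]
  obtain ⟨hwf, hp, hn⟩ := pc36_data
  have hvars := okVars_spec
  obtain ⟨⟨hrv, hcv⟩, hrs⟩ := hvars
  -- the lifts
  let y : ℕ → Δ := fun i => Function.surjInv hτ.1 (gG i)
  have hy : ∀ i, τ (y i) = gG i := fun i => Function.surjInv_eq hτ.1 _
  let c : ℕ → Δ := fun a => Function.surjInv hτ.1 (celG a)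
  have hc : ∀ a, τ (c a) = celG a := fun a => Function.surjInv_eq hτ.1 _
  have hyW : ∀ W, τ (evalW y W) = evalW gG W := fun W => by
    rw [map_evalW]
    simp only [hy]
  let toA : Δ → A := fun x => if h : ∃ a, zp a = x then h.choose else 1
  have htoA : ∀ x, τ x = 1 → zp (toA x) = x := fun x hx => by
    have h : ∃ a, zp a = x := by
      have hx' : x ∈ zp.range := hzr.symm ▸ MonoidHom.mem_ker.2 hx
      exact hx'
    simp only [toA, dif_pos h]
    exact h.choose_spec
  let tv : ℕ × ℕ → A := fun p => toA ((evalW y (relSides p.1 p.2).2)⁻¹ * evalW y (relSides p.1 p.2).1)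
  let cv : ℕ × ℕ → A := fun p => toA ((evalW y (cw p.1 p.2))⁻¹ * (c p.1 * y p.2 * (c p.1)⁻¹))
  let f : ℕ → A := fun x => if x < 666 then tv (relList.getD x (0, 0)) else cv (conjList.getD (x - 666) (0, 0))
  have hfrel : ∀ j < 36, ∀ i ≤ j, f (relVar j i) = tv (j, i) := by
    intro j hj i hi
    have hmem := (hrs j hj i (by omega)).1
    obtain ⟨h1, h2⟩ := hrv _ hmem
    simp only [f, if_pos h1, h2]
  have hfconj : ∀ a < 5, ∀ i ∈ subTab.getD a [], f (vv a i) = cv (a, i) := by
    intro a ha i hi
    have hmem : (a, i) ∈ conjList :=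
      List.mem_flatMap.2 ⟨a, List.mem_range.2 ha, List.mem_map.2 ⟨i, hi, rfl⟩⟩
    obtain ⟨h1, h2⟩ := hcv _ hmem
    have h1' : 666 ≤ vv a i := h1
    simp only [f, if_neg (show ¬ vv a i < 666 by omega), h2]
  -- the relations in the group
  have hsides : ∀ j < 36, ∀ i ≤ j, evalW gG (relSides j i).1 = evalW gG (relSides j i).2 := by
    intro j hj i hi
    by_cases e : j = i
    · subst e
      have h := satG.1 j (hn.symm ▸ hj)
      rw [hp, pow_two] at h
      simpa [relSides] using h
    · have h := satG.2 j (hn.symm ▸ hj) i (by omega)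
      rw [relSides, show Nat.beq j i = false from Bool.eq_false_iff.2 fun h => e (Nat.eq_of_beq_eq_true h),
        cond_false, evalW_append]
      simpa using h
  have hrel : ∀ j < 36, ∀ i ≤ j,
      evalW y (relSides j i).1 = evalW y (relSides j i).2 * zp (f (relVar j i)) := by
    intro j hj i hi
    rw [hfrel j hj i hi]
    simp only [tv]
    rw [htoA _ (by rw [map_mul, map_inv, hyW, hyW, hsides j hj i hi, inv_mul_cancel]), mul_inv_cancel_left]
  let L : LiftA pc36 A Δ :=
    { s := y
      zp := zp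
      zp_comm := zc
      τ := f
      pow_rel := fun j hj => by
        have hj' : j < 36 := hn ▸ hj
        have h := hrel j hj' j le_rfl
        simp only [relSides, relVar, show Nat.beq j j = true from Nat.beq_eq.symm ▸ rfl, cond_true,
          evalW_cons, evalW_nil, mul_one] at h
        rw [hp, pow_two]
        exact h
      cj_rel := fun j hj i hi => by
        have hj' : j < 36 := hn ▸ hj
        have h := hrel j hj' i hi.le
        simp only [relSides, relVar, show Nat.beq j i = false from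
          Bool.eq_false_iff.2 fun h => absurd (Nat.eq_of_beq_eq_true h) (by omega), cond_false,
          evalW_cons, evalW_nil, mul_one, evalW_append] at h
        rw [h, mul_assoc _ (y j), ← zc, ← mul_assoc] }
  have hcol : ∀ W : List ℕ, (∀ x ∈ W, x < 36) →
      evalW y W = evalV y 36 (pc36.collect W).1 * zp (((pc36.collect W).2.map f).prod) := fun W hW => by
    have h := L.collect_sound hwf W (fun x hx => hn.symm ▸ hW x hx)
    rw [hn] at h
    exact h
  have hconj : ∀ a < 5, ∀ W : List ℕ, (∀ x ∈ W, x ∈ subTab.getD a []) →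
      c a * evalW y W * (c a)⁻¹ = evalW y (W.flatMap (cw a)) * zp ((W.map fun i => f (vv a i)).prod) := by
    intro a ha W
    induction W with
    | nil => intro _; simp
    | cons i W ih =>
      intro hW
      have hi := hW i List.mem_cons_self
      have h1 : c a * y i * (c a)⁻¹ = evalW y (cw a i) * zp (f (vv a i)) := by
        rw [hfconj a ha i hi]
        simp only [cv]
        rw [htoA _ (by
          rw [map_mul, map_inv, hyW, map_mul, map_mul, map_inv, hc, hy, celG_conj_gG ha hi]
          exact inv_mul_cancel _), mul_inv_cancel_left]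
      have h2 := ih fun x hx => hW x (List.mem_cons_of_mem _ hx)
      rw [evalW_cons, List.flatMap_cons, evalW_append, List.map_cons, List.prod_cons, map_mul]
      calc c a * (y i * evalW y W) * (c a)⁻¹
          = (c a * y i * (c a)⁻¹) * (c a * evalW y W * (c a)⁻¹) := by group
        _ = evalW y (cw a i) * (zp (f (vv a i)) * evalW y (W.flatMap (cw a))) *
              zp ((W.map fun i => f (vv a i)).prod) := by rw [h1, h2]; simp only [mul_assoc]
        _ = _ := by rw [zc]; simp only [mul_assoc]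
  have quad : ∀ (x z : A), x = z → x * (z * (z * z)) = 1 := fun x z h => by
    rw [h]
    have h' := hA z
    rwa [pow_succ', pow_succ', pow_succ', pow_one] at h'
  -- every equation holds
  have hrow : ∀ e ∈ rowTab, rowOK e = true → ((rowForm e).map f).prod = 1 := by
    rintro ⟨kind, a, b, d⟩ - hok
    match kind with
    | 0 =>
      simp only [rowOK, Bool.and_eq_true, decide_eq_true_eq] at hok
      have hb := mem_below hok.1
      have e1 := hcol [a, b, d] hb
      have e2 := hcol [b, d] fun x hx => hb x (List.mem_cons_of_mem _ hx)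
      have e3 := hcol (a :: PC.wordOf 36 (pc36.collect [b, d]).1) (fun x hx => by
        rcases List.mem_cons.1 hx with rfl | hx
        · exact hb _ List.mem_cons_self
        · exact wordOf_lt 36 _ x hx)
      have e4 : evalW y [a, b, d] = evalW y (a :: PC.wordOf 36 (pc36.collect [b, d]).1) *
          zp (((pc36.collect [b, d]).2.map f).prod) := by
        rw [evalW_cons, e2, evalW_cons, evalV_wordOf, mul_assoc]
      rw [e1, e3, hok.2, mul_assoc, ← map_mul] at e4
      simp only [rowForm, tri, List.map_append, List.prod_append]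
      exact quad _ _ ((zinj _ _ (mul_left_cancel e4)).trans (mul_comm _ _))
    | k + 1 =>
      simp only [rowOK, Bool.and_eq_true, decide_eq_true_eq, Nat.blt_eq, Nat.ble_eq, List.all_eq_true,
        List.contains_iff_mem] at hok
      obtain ⟨⟨⟨⟨hk, ha⟩, hba⟩, hall⟩, heq⟩ := hok
      have hl : ∀ x ∈ (relSides a b).1, x ∈ subTab.getD k [] ∧ ∀ z ∈ cw k x, z < 36 := fun x hx =>
        ⟨(hall x (List.mem_append_left _ hx)).1, mem_below (hall x (List.mem_append_left _ hx)).2⟩
      have hr : ∀ x ∈ (relSides a b).2, x ∈ subTab.getD k [] ∧ ∀ z ∈ cw k x, z < 36 := fun x hx =>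
        ⟨(hall x (List.mem_append_right _ hx)).1, mem_below (hall x (List.mem_append_right _ hx)).2⟩
      have e1 := hconj k hk _ fun x hx => (hl x hx).1
      have e2 := hconj k hk _ fun x hx => (hr x hx).1
      have c1 := hcol ((relSides a b).1.flatMap (cw k)) fun z hz => by
        obtain ⟨x, hx, hz⟩ := List.mem_flatMap.1 hz
        exact (hl x hx).2 z hz
      have c2 := hcol ((relSides a b).2.flatMap (cw k)) fun z hz => by
        obtain ⟨x, hx, hz⟩ := List.mem_flatMap.1 hz
        exact (hr x hx).2 z hz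
      have e3 : c k * evalW y (relSides a b).1 * (c k)⁻¹ =
          c k * evalW y (relSides a b).2 * (c k)⁻¹ * zp (f (relVar a b)) := by
        rw [hrel a ha b hba]
        calc c k * (evalW y (relSides a b).2 * zp (f (relVar a b))) * (c k)⁻¹
            = c k * evalW y (relSides a b).2 * (zp (f (relVar a b)) * (c k)⁻¹) := by simp only [mul_assoc]
          _ = _ := by rw [zc, ← mul_assoc]
      rw [e1, e2, c1, c2, heq, mul_assoc, ← map_mul, mul_assoc (evalV y 36 _), ← map_mul, mul_assoc,
        ← map_mul] at e3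
      simp only [rowForm, tri, List.map_append, List.map_map, List.prod_append, List.map_cons, List.map_nil,
        List.prod_cons, List.prod_nil, mul_one]
      exact quad _ _ (zinj _ _ (mul_left_cancel e3))
  have hforms : ∀ F ∈ formTab, (F.map f).prod = 1 := by
    intro F hF
    obtain ⟨k, hk, rfl⟩ := List.getElem_of_mem hF
    have hlen := okForms_true
    simp only [okForms, Bool.and_eq_true] at hlen
    have hk' : k < 648 := (Nat.eq_of_beq_eq_true hlen.1.1) ▸ hk
    obtain ⟨lo, hi, hok, h1, h2⟩ := okRows_all hk'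
    have hok' := hok
    simp only [okRows, List.all_eq_true, List.mem_range, Bool.or_eq_true, Bool.and_eq_true, Nat.blt_eq] at hok'
    obtain ⟨⟨hro, -⟩, -⟩ := (hok' k h2).resolve_left (not_lt.2 h1)
    have hkr : k < rowTab.length := by
      rw [Nat.eq_of_beq_eq_true hlen.1.2]
      exact hk'
    have := form_prod (f := f) hA hok h1 h2 (hrow _ (by
      rw [List.getD_eq_getElem _ _ hkr]
      exact List.getElem_mem hkr) hro)
    rwa [List.getD_eq_getElem _ _ hk] at this
  have hred : ∀ {t : ℕ} {M : List ℕ}, reduces t M = true → (M.map f).prod = 1 := fun h =>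
    prod_of_reduces okForms_true hA hforms h
  -- the four-group
  set ga : A := (formA.map f).prod with hga
  set gb : A := (formB.map f).prod with hgb
  have hg2 : ga ^ 2 = 1 ∧ gb ^ 2 = 1 := by
    have h := okGens_true
    simp only [okGens, Bool.and_eq_true] at h
    have h1 := hred h.1
    have h2 := hred h.2
    rw [List.map_append, List.prod_append, ← pow_two] at h1 h2
    exact ⟨h1, h2⟩
  have hadd : ∀ (g : A), g ^ 2 = 1 → ∀ a b : ZMod 2, g ^ (a + b).val = g ^ a.val * g ^ b.val := fun g hg a b => by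
    have hm : ∀ n, g ^ n = g ^ (n % 2) := fun n => by
      conv_lhs => rw [← Nat.div_add_mod n 2, pow_add, pow_mul, hg, one_pow, one_mul]
    rw [← pow_add, hm (a.val + b.val), ZMod.val_add]
  let κ : Multiplicative (ZMod 2 × ZMod 2) →* A := MonoidHom.mk'
    (fun a => ga ^ (Multiplicative.toAdd a).1.val * gb ^ (Multiplicative.toAdd a).2.val) fun a b => by
    simp only [toAdd_mul, Prod.fst_add, Prod.snd_add, hadd _ hg2.1, hadd _ hg2.2]
    exact mul_mul_mul_comm _ _ _ _
  have hκc : Nat.card ↥κ.range ≤ 4 := by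
    refine (Nat.card_le_card_of_surjective _ κ.rangeRestrict_surjective).trans (le_of_eq ?_)
    rw [Nat.card_congr Multiplicative.toAdd, Nat.card_prod, Nat.card_zmod]
  have hκ2 : ∀ x ∈ κ.range, x ^ 2 = 1 := by
    rintro _ ⟨a, rfl⟩
    rw [← map_pow, show a ^ 2 = 1 from by revert a; decide, map_one]
  -- corrected lifts
  let bet : ℕ → A := fun i => ((betaTab.getD i []).map f).prod
  have hbW : ∀ W, ((betaW W).map f).prod = (W.map bet).prod := fun W => by
    induction W with
    | nil => simp [betaW]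
    | cons i W ih =>
      simp only [betaW, List.flatMap_cons, List.map_append, List.prod_append, List.map_cons, List.prod_cons] at ih ⊢
      rw [ih]
  let y' : ℕ → Δ := fun i => y i * zp (bet i)⁻¹
  have hy' : ∀ W, evalW y' W = evalW y W * zp ((W.map bet).prod)⁻¹ := fun W => by
    induction W with
    | nil => simp
    | cons i W ih =>
      rw [evalW_cons, evalW_cons, List.map_cons, List.prod_cons, mul_inv, map_mul, ih]
      show y i * zp (bet i)⁻¹ * (evalW y W * _) = _
      rw [mul_assoc (y i), ← mul_assoc (zp (bet i)⁻¹), zc]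
      simp only [mul_assoc]
  have hkey : ∀ j < 36, ∀ i ≤ j, ∃ a ∈ κ.range,
      evalW y' (relSides j i).1 = evalW y' (relSides j i).2 * zp a := by
    intro j hj i hi
    have h := okTargets_all hj
    simp only [okTargets, List.all_eq_true, List.mem_range] at h
    have ht := hred (h i (by omega))
    set co := coefTab.getD (relVar j i) (0, 0)
    have hrep : ∀ (n : ℕ) (M : List ℕ), (((List.replicate n M).flatten).map f).prod = (M.map f).prod ^ n := by
      intro n M
      induction n with
      | zero => simp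
      | succ n ih =>
        rw [List.replicate_succ, List.flatten_cons, List.map_append, List.prod_append, ih, pow_succ']
    set Rr := ((relSides j i).2.map bet).prod
    set Ll := ((relSides j i).1.map bet).prod
    set q := ga ^ co.1 * gb ^ co.2 with hq
    have hqmem : q ∈ κ.range := by
      have h10 : ga ∈ κ.range := ⟨Multiplicative.ofAdd (1, 0), by simp [κ, ZMod.val_one]⟩
      have h01 : gb ∈ κ.range := ⟨Multiplicative.ofAdd (0, 1), by simp [κ, ZMod.val_one]⟩
      exact mul_mem (pow_mem h10 _) (pow_mem h01 _)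
    refine ⟨q, hqmem, ?_⟩
    simp only [target, tri, List.map_cons, List.prod_cons, List.map_append, List.prod_append, hbW, hrep] at ht
    have inv3 : ∀ z : A, z * (z * z) = z⁻¹ := fun z => by
      refine eq_inv_of_mul_eq_one_left ?_
      rw [← hA z]
      simp [pow_succ, mul_assoc]
    rw [← hga, ← hgb] at ht
    have hX : f (relVar j i) * (Ll)⁻¹ = (Rr)⁻¹ * q := by
      rw [inv3, inv3] at ht
      rw [← hq] at ht
      have : f (relVar j i) * Rr * Ll⁻¹ * q⁻¹ = 1 := by
        rw [← ht]
      rw [mul_inv_eq_one] at this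
      rw [← this]
      rw [mul_right_comm (f _) Rr, mul_comm Rr⁻¹, mul_assoc, mul_inv_cancel, mul_one]
    rw [hy', hy', hrel j hj i hi, mul_assoc, mul_assoc, ← map_mul, ← map_mul, hX]
  -- the quotient by the four-group splits
  obtain ⟨Ω, iΩ, fΩ, θ, ρ, hθ, hρs, hcomp, hρk, hθk, hθcard⟩ :=
    SchurBound.exists_quotient_stem hτ ((κ.range.map zp).subgroupOf τ.ker)
  let z : ℕ → Ω := fun i => ρ (y' i)
  have hzW : ∀ W, evalW z W = ρ (evalW y' W) := fun W => (map_evalW ρ y' W).symm
  have hρz : ∀ a ∈ κ.range, ρ (zp a) = 1 := fun a ha => by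
    rw [← MonoidHom.mem_ker, hρk]
    exact ⟨⟨zp a, zk a⟩, ⟨a, ha, rfl⟩, rfl⟩
  have hzsat : SatPC pc36 z := by
    refine ⟨fun j hj => ?_, fun j hj i hi => ?_⟩
    · obtain ⟨a, ha, e⟩ := hkey j (hn ▸ hj) j le_rfl
      have e' := congrArg ρ e
      rw [map_mul, hρz a ha, mul_one, ← hzW, ← hzW, relSides,
        show Nat.beq j j = true from Nat.beq_eq.symm ▸ rfl, cond_true] at e'
      rw [hp, pow_two]
      simpa using e'
    · obtain ⟨a, ha, e⟩ := hkey j (hn ▸ hj) i hi.le
      have e' := congrArg ρ e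
      rw [map_mul, hρz a ha, mul_one, ← hzW, ← hzW, relSides,
        show Nat.beq j i = false from Bool.eq_false_iff.2 fun h => absurd (Nat.eq_of_beq_eq_true h) (by omega),
        cond_false, evalW_append] at e'
      simpa using e'
  have hθz : ∀ i, θ (z i) = gG i := fun i => by
    show θ (ρ (y' i)) = _
    rw [← MonoidHom.comp_apply, hcomp]
    show τ (y i * zp (bet i)⁻¹) = _
    rw [map_mul, hy, show τ (zp (bet i)⁻¹) = 1 from zk _, mul_one]
  set Z := initGroup z 36
  have hZmap : Z.map θ = UG := by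
    rw [map_initGroup, ← initGroupG]
    exact initGroup_congr fun i _ => hθz i
  have hZcard : Nat.card ↥Z ≤ 2 ^ 36 := by
    have := card_initGroup_le hwf hzsat (by omega) (k := 36) (by omega)
    rwa [hp] at this
  have hZinj : ∀ x ∈ Z, θ x = 1 → x = 1 := by
    intro x hx hx1
    let g : ↥Z → ↥(UG : Subgroup G2) := fun w => ⟨θ w.1, hZmap ▸ Subgroup.mem_map_of_mem θ w.2⟩
    have hgs : Function.Surjective g := by
      rintro ⟨u, hu⟩
      rw [← hZmap] at hu
      obtain ⟨w, hw, rfl⟩ := hu
      exact ⟨⟨w, hw⟩, rfl⟩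
    have hb := hgs.bijective_of_nat_card_le (by rw [card_UG]; exact hZcard)
    exact congrArg Subtype.val (hb.1 (a₁ := ⟨x, hx⟩) (a₂ := 1) (Subtype.ext (hx1.trans (map_one θ).symm)))
  have hbot : θ.ker = ⊥ := by
    refine (Subgroup.eq_bot_iff_forall _).2 fun x hx => ?_
    have hidx : ((UG : Subgroup G2).comap θ).index = (UG : Subgroup G2).index :=
      Subgroup.index_comap_of_surjective _ hθ.1
    haveI : ((UG : Subgroup G2).comap θ).FiniteIndex :=
      ⟨fun h => odd_index (by rw [← hidx, h]; exact dvd_zero 2)⟩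
    have hx4 : x ^ 4 = 1 := by
      rw [hθk] at hx
      obtain ⟨w, hw, rfl⟩ := hx
      rw [← map_pow, h4 w hw, map_one]
    have hco : Nat.Coprime ((UG : Subgroup G2).comap θ).index 4 := by
      rw [hidx, show (4 : ℕ) = 2 ^ 2 from rfl]
      exact Nat.Coprime.pow_right 2 ((Nat.prime_two.coprime_iff_not_dvd).2 odd_index).symm
    obtain ⟨w, hw, hwx⟩ := CentralExt.mem_commutator_of_coprime ((UG : Subgroup G2).comap θ)
      (hθ.2.1 hx) (hθ.2.2 hx) (by rw [Subgroup.mem_comap, MonoidHom.mem_ker.1 hx]; exact one_mem _) hx4 hco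
    have hle : (commutator ↥((UG : Subgroup G2).comap θ)).map ((UG : Subgroup G2).comap θ).subtype ≤ Z := by
      rw [Subgroup.map_subtype_commutator, Subgroup.commutator_le]
      intro g hg g' hg'
      rw [Subgroup.mem_comap, ← hZmap] at hg hg'
      obtain ⟨k, hk, ek⟩ := hg
      obtain ⟨k', hk', ek'⟩ := hg'
      have cz : k⁻¹ * g ∈ Subgroup.center Ω :=
        hθ.2.1 (by rw [MonoidHom.mem_ker, map_mul, map_inv, ek, inv_mul_cancel])
      have cz' : k'⁻¹ * g' ∈ Subgroup.center Ω :=
        hθ.2.1 (by rw [MonoidHom.mem_ker, map_mul, map_inv, ek', inv_mul_cancel])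
      have hh : ∀ (w : Ω), w ∈ Subgroup.center Ω → ∀ x y : Ω, ⁅x * w, y⁆ = ⁅x, y⁆ := fun w hw x y => by
        rw [commutatorElement_def, commutatorElement_def, mul_assoc x w y,
          ← Subgroup.mem_center_iff.1 hw y]
        group
      have e : ⁅g, g'⁆ = ⁅k, k'⁆ := by
        conv_lhs => rw [← mul_inv_cancel_left k g, ← mul_inv_cancel_left k' g']
        rw [hh _ cz, ← commutatorElement_inv, hh _ cz', commutatorElement_inv]
      rw [e, commutatorElement_def]
      exact mul_mem (mul_mem (mul_mem hk hk') (inv_mem hk)) (inv_mem hk')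
    exact hZinj x (hle ⟨w, hw, hwx⟩) hx
  rw [hbot, Subgroup.card_bot, one_mul,
    Nat.card_congr (Subgroup.subgroupOfEquivOfLe (show κ.range.map zp ≤ τ.ker from
      hzr ▸ Subgroup.map_le_range zp κ.range)).toEquiv] at hθcard
  have hle : τ.ker ≤ κ.range.map zp :=
    (Subgroup.eq_of_le_of_card_ge (hzr ▸ Subgroup.map_le_range zp κ.range) (le_of_eq hθcard.symm)).ge
  refine ⟨?_, fun x hx => ?_⟩
  · rw [← hθcard]
    exact (Nat.card_le_card_of_surjective (fun a : ↥κ.range => (⟨zp a.1, ⟨a.1, a.2, rfl⟩⟩ : ↥(κ.range.map zp)))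
      (by rintro ⟨x, a, ha, rfl⟩; exact ⟨⟨a, ha⟩, rfl⟩)).trans hκc
  · obtain ⟨a, ha, rfl⟩ := hle hx
    rw [← map_pow, hκ2 a ha, map_one]

/-- A stem extension with kernel of exponent dividing four. -/
theorem bound_four {Δ : Type} [Group Δ] [Finite Δ] {τ : Δ →* G2} (hτ : Cfsg.IsStemExtension τ)
    (h4 : ∀ z ∈ τ.ker, z ^ 4 = 1) : Nat.card ↥τ.ker ≤ 4 ∧ ∀ z ∈ τ.ker, z ^ 2 = 1 := by
  let _ : CommGroup τ.ker :=
    { (inferInstance : Group τ.ker) with
      mul_comm := fun a b => Subtype.ext ((Subgroup.mem_center_iff.1 (hτ.2.1 b.2)) (a : Δ)) }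
  exact bound_core hτ (A := ↥τ.ker) τ.ker.subtype τ.ker.subtype_injective τ.ker.range_subtype
    fun a => Subtype.ext (h4 a.1 a.2)

/-- A stem extension with kernel a 2-group has kernel of order at most four. -/
theorem card_two_le {Δ : Type} [Group Δ] [Finite Δ] {τ : Δ →* G2} (hτ : Cfsg.IsStemExtension τ)
    (h2 : IsPGroup 2 τ.ker) : Nat.card ↥τ.ker ≤ 4 := by
  let _ : CommGroup τ.ker :=
    { (inferInstance : Group τ.ker) with
      mul_comm := fun a b => Subtype.ext ((Subgroup.mem_center_iff.1 (hτ.2.1 b.2)) (a : Δ)) }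
  let K : Subgroup ↥τ.ker := (powMonoidHom 4 : ↥τ.ker →* ↥τ.ker).range
  obtain ⟨Ω, _, _, θ, ρ, hθ, hρs, hcomp, hρk, hθk, hθcard⟩ := SchurBound.exists_quotient_stem hτ K
  have h4 : ∀ z ∈ θ.ker, z ^ 4 = 1 := by
    intro z hz
    rw [hθk] at hz
    obtain ⟨w, hw, rfl⟩ := hz
    rw [← map_pow, ← MonoidHom.mem_ker, hρk]
    exact ⟨(⟨w, hw⟩ : ↥τ.ker) ^ 4, ⟨⟨w, hw⟩, rfl⟩, rfl⟩
  obtain ⟨hc, hsq⟩ := bound_four hθ h4
  have hK : ∀ z : ↥τ.ker, ∃ w : ↥τ.ker, z ^ 2 = w ^ 4 := by
    intro z
    have h := hsq (ρ z.1) (by rw [hθk]; exact ⟨z.1, z.2, rfl⟩)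
    rw [← map_pow, ← MonoidHom.mem_ker, hρk] at h
    obtain ⟨m, ⟨w, hw⟩, hm⟩ := h
    refine ⟨w, Subtype.ext ?_⟩
    rw [Subgroup.coe_pow, ← hm, ← hw]
    rfl
  have hiter : ∀ (n : ℕ) (z : ↥τ.ker), ∃ w : ↥τ.ker, z ^ 2 = w ^ (2 * 2 ^ n) := by
    intro n
    induction n with
    | zero => exact fun z => ⟨z, rfl⟩
    | succ n ih =>
      intro z
      obtain ⟨w, hw⟩ := ih z
      obtain ⟨v, hv⟩ := hK w
      refine ⟨v, ?_⟩
      rw [hw, pow_mul, hv, ← pow_mul, pow_succ]
      ring_nf
  obtain ⟨n, hn⟩ := IsPGroup.iff_card.1 h2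
  have hone : ∀ z : ↥τ.ker, z ^ 2 = 1 := fun z => by
    obtain ⟨w, hw⟩ := hiter n z
    rw [hw, mul_comm, pow_mul, ← hn, pow_card_eq_one']
    simp
  have hKbot : K = ⊥ := by
    refine (Subgroup.eq_bot_iff_forall _).2 ?_
    rintro _ ⟨w, rfl⟩
    show w ^ 4 = 1
    rw [show (4 : ℕ) = 2 * 2 from rfl, pow_mul, hone]
  rw [hKbot, Subgroup.card_bot, mul_one] at hθcard
  omega

end Cfsg.Agent.TwE6Two
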